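import Mathlib
import Cfsg.Prelude.Def_GeometricClasses
set_option autoImplicit false

namespace Cfsg.Agent.Lib.Helper97
open Matrix Module

section GroupTheory
variable {G : Type*} [Group G] [Finite G]

/-- iterated commutators of a subgroup inside the ambient group -/
def dser (D : Subgroup G) : ℕ → Subgroup G
  | 0 => D
  | (k+1) => ⁅dser D k, dser D k⁆

omit [Finite G] in
lemma dser_le_derived (D : Subgroup G) (k : ℕ) : dser D k ≤ derivedSeries G k := by
  induction k with
  | zero => simp [dser]
  | succ k ih => exact Subgroup.commutator_mono ih ih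

omit [Finite G] in
lemma dser_le (D : Subgroup G) (k : ℕ) : dser D k ≤ D := by
  induction k with
  | zero => simp [dser]
  | succ k ih =>
    refine le_trans ?_ ih
    show ⁅dser D k, dser D k⁆ ≤ dser D k
    rw [Subgroup.commutator_le]
    intro a ha b hb
    exact (dser D k).mul_mem ((dser D k).mul_mem ((dser D k).mul_mem ha hb) ((dser D k).inv_mem ha)) ((dser D k).inv_mem hb)

omit [Finite G] in
lemma dser_normal (D : Subgroup G) [hD : D.Normal] (k : ℕ) : (dser D k).Normal := by
  induction k with
  | zero => exact hD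
  | succ k ih =>
    have := ih
    exact Subgroup.commutator_normal _ _

theorem exists_AB (hsol : IsSolvable G) :
    ∃ A B : Subgroup G, A.Normal ∧ B.Normal ∧ (∀ x ∈ A, ∀ y ∈ A, x * y = y * x) ∧
      (∀ x ∈ B, ∀ y ∈ B, x * y * x⁻¹ * y⁻¹ ∈ A) ∧ (∀ z : G, (∀ b ∈ B, z * b = b * z) → z ∈ A) := by
  classical
  -- A maximal abelian normal
  obtain ⟨A, hA⟩ : ∃ A : Subgroup G, Maximal (· ∈ {A : Subgroup G | A.Normal ∧ ∀ x ∈ A, ∀ y ∈ A, x * y = y * x}) A := by
    apply Set.Finite.exists_maximal (Set.toFinite _)
    refine ⟨⊥, inferInstance, ?_⟩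
    intro x hx y hy
    rw [Subgroup.mem_bot] at hx hy
    rw [hx, hy]
  obtain ⟨⟨hAn, hAc⟩, hAmax⟩ := hA
  obtain ⟨B, hB⟩ : ∃ B : Subgroup G, Maximal (· ∈ {B : Subgroup G | B.Normal ∧ A ≤ B ∧ (∀ b ∈ B, ∀ a ∈ A, b * a = a * b) ∧
      ∀ x ∈ B, ∀ y ∈ B, x * y * x⁻¹ * y⁻¹ ∈ A}) B := by
    apply Set.Finite.exists_maximal (Set.toFinite _)
    refine ⟨A, hAn, le_rfl, hAc, ?_⟩
    intro x hx y hy
    exact A.mul_mem (A.mul_mem (A.mul_mem hx hy) (A.inv_mem hx)) (A.inv_mem hy)
  obtain ⟨⟨hBn, hAB, hBA, hBB⟩, hBmax⟩ := hB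
  refine ⟨A, B, hAn, hBn, hAc, hBB, ?_⟩
  -- D = centralizer of B
  set D : Subgroup G := Subgroup.centralizer (B : Set G) with hD
  have : D.Normal := Subgroup.normal_centralizer
  have hDmem : ∀ z, z ∈ D ↔ ∀ b ∈ B, b * z = z * b := fun z => Subgroup.mem_centralizer_iff
  suffices hDA : D ≤ A by
    intro z hz
    apply hDA
    rw [hDmem]
    intro b hb
    exact (hz b hb).symm
  -- Z(B) = A
  have hZ : B ⊓ D ≤ A := by
    apply hAmax
    · refine ⟨inferInstance, ?_⟩
      intro x hx y hy
      exact ((hDmem y).1 hy.2 x hx.1)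
    · intro a ha
      refine ⟨hAB ha, ?_⟩
      show a ∈ D
      rw [hDmem]
      intro b hb
      exact hBA b hb a ha
  by_contra hcon
  obtain ⟨m, hm⟩ := hsol.solvable
  have hex : ∃ k, dser D k ≤ A := ⟨m, by
    have := dser_le_derived D m
    rw [hm] at this
    exact le_trans this bot_le⟩
  set k := Nat.find hex with hk
  have hkA : dser D k ≤ A := Nat.find_spec hex
  have hk0 : k ≠ 0 := by
    intro h0
    rw [h0] at hkA
    exact hcon hkA
  obtain ⟨j, hj⟩ := Nat.exists_eq_succ_of_ne_zero hk0
  have hjA : ¬ dser D j ≤ A := Nat.find_min hex (by omega)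
  set E := dser D j with hE
  have hEE : ⁅E, E⁆ ≤ A := by
    have : dser D k = ⁅E, E⁆ := by rw [hj]; rfl
    rw [← this]; exact hkA
  have hEn : E.Normal := dser_normal D j
  have hED : E ≤ D := dser_le D j
  apply hjA
  refine le_trans ?_ hZ
  refine le_inf ?_ hED
  -- E ≤ B by maximality
  have hB' : B ⊔ E ≤ B := by
    apply hBmax
    · refine ⟨inferInstance, le_sup_of_le_left hAB, ?_, ?_⟩
      · have h1 : B ⊔ E ≤ Subgroup.centralizer (A : Set G) := by
          refine sup_le ?_ ?_
          · intro b hb
            rw [Subgroup.mem_centralizer_iff]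
            intro a ha
            exact (hBA b hb a ha).symm
          · intro e he
            rw [Subgroup.mem_centralizer_iff]
            intro a ha
            exact (hDmem e).1 (hED he) a (hAB ha)
        intro b hb a ha
        exact ((Subgroup.mem_centralizer_iff.1 (h1 hb)) a ha).symm
      · -- commutators
        let π := QuotientGroup.mk' A
        have comm_iff : ∀ x y : G, x * y * x⁻¹ * y⁻¹ ∈ A ↔ π x * π y = π y * π x := by
          intro x y
          rw [← map_mul, ← map_mul]
          constructor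
          · intro h
            have : (y * x)⁻¹ * (x * y) ∈ A := by
              have h2 := hAn.conj_mem _ h (y * x)⁻¹
              have e : (y * x)⁻¹ * (x * y * x⁻¹ * y⁻¹) * (y * x)⁻¹⁻¹ = (y * x)⁻¹ * (x * y) := by group
              rwa [e] at h2
            exact (QuotientGroup.eq.2 this).symm
          · intro h
            have h1 : (y * x)⁻¹ * (x * y) ∈ A := QuotientGroup.eq.1 h.symm
            have h2 := hAn.conj_mem _ h1 (y * x)
            have e : (y * x) * ((y * x)⁻¹ * (x * y)) * (y * x)⁻¹ = x * y * x⁻¹ * y⁻¹ := by group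
            rwa [e] at h2
        have hBBq : ∀ x ∈ B, ∀ y ∈ B, π x * π y = π y * π x := fun x hx y hy => (comm_iff x y).1 (hBB x hx y hy)
        have hEEq : ∀ x ∈ E, ∀ y ∈ E, π x * π y = π y * π x := fun x hx y hy => by
          rw [← comm_iff]
          apply hEE
          have := Subgroup.commutator_mem_commutator hx hy
          rwa [commutatorElement_def] at this
        have hBEq : ∀ x ∈ B, ∀ y ∈ E, π x * π y = π y * π x := fun x hx y hy => by
          rw [← map_mul, ← map_mul, (hDmem y).1 (hED hy) x hx]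
        -- first: every element of B ⊔ E commutes (mod A) with B and with E
        have cmem : ∀ (H : Subgroup G) (x : G), x ∈ (Subgroup.centralizer (π '' (H : Set G))).comap π ↔
            ∀ y ∈ H, π y * π x = π x * π y := by
          intro H x
          rw [Subgroup.mem_comap, Subgroup.mem_centralizer_iff]
          constructor
          · intro h y hy
            exact h _ ⟨y, hy, rfl⟩
          · rintro h _ ⟨y, hy, rfl⟩
            exact h y hy
        have s1 : B ⊔ E ≤ (Subgroup.centralizer (π '' (B : Set G))).comap π := by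
          refine sup_le ?_ ?_
          · intro x hx
            rw [cmem]
            intro y hy
            exact hBBq y hy x hx
          · intro x hx
            rw [cmem]
            intro y hy
            exact hBEq y hy x hx
        have s2 : B ⊔ E ≤ (Subgroup.centralizer (π '' (E : Set G))).comap π := by
          refine sup_le ?_ ?_
          · intro x hx
            rw [cmem]
            intro y hy
            exact (hBEq x hx y hy).symm
          · intro x hx
            rw [cmem]
            intro y hy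
            exact hEEq y hy x hx
        have s3 : B ⊔ E ≤ (Subgroup.centralizer (π '' ((B ⊔ E : Subgroup G) : Set G))).comap π := by
          refine sup_le ?_ ?_
          · intro x hx
            rw [cmem]
            intro y hy
            exact ((cmem B y).1 (s1 hy) x hx).symm
          · intro x hx
            rw [cmem]
            intro y hy
            exact ((cmem E y).1 (s2 hy) x hx).symm
        intro x hx y hy
        rw [comm_iff]
        exact (cmem _ y).1 (s3 hy) x hx
    · exact le_sup_left
  exact le_trans le_sup_right hB'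

end GroupTheory

section Lin
variable {F : Type*} [Field F] {n : ℕ}

/-- the linear map of a GL element -/
abbrev L (g : GL (Fin n) F) : (Fin n → F) →ₗ[F] (Fin n → F) := Matrix.toLin' (g : Matrix (Fin n) (Fin n) F)

lemma L_mul (g h : GL (Fin n) F) : L (g * h) = L g ∘ₗ L h := by
  simp [L, Matrix.toLin'_mul]

lemma L_one : L (1 : GL (Fin n) F) = LinearMap.id := by
  simp [L]

lemma L_mul_apply (g h : GL (Fin n) F) (v : Fin n → F) : L (g * h) v = L g (L h v) := by
  rw [L_mul]; rfl

lemma L_inv_apply (g : GL (Fin n) F) (v : Fin n → F) : L g⁻¹ (L g v) = v := by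
  have : (L g⁻¹ ∘ₗ L g) v = v := by rw [← L_mul, inv_mul_cancel, L_one]; rfl
  exact this

lemma L_apply_inv (g : GL (Fin n) F) (v : Fin n → F) : L g (L g⁻¹ v) = v := by
  have : (L g ∘ₗ L g⁻¹) v = v := by rw [← L_mul, mul_inv_cancel, L_one]; rfl
  exact this

lemma L_injective (g : GL (Fin n) F) : Function.Injective (L g) := by
  intro v w h
  have := congrArg (L g⁻¹) h
  rwa [L_inv_apply, L_inv_apply] at this

lemma L_inj {g h : GL (Fin n) F} (e : L g = L h) : g = h := by
  apply Units.ext
  exact Matrix.toLin'.injective e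

def fixS (g : GL (Fin n) F) : Submodule F (Fin n → F) :=
  Module.End.eigenspace (Matrix.toLin' (g : Matrix (Fin n) (Fin n) F)) 1

lemma mem_fixS (g : GL (Fin n) F) (v : Fin n → F) : v ∈ fixS g ↔ L g v = v := by
  simp [fixS]

lemma finrank_map_L (g : GL (Fin n) F) (W : Submodule F (Fin n → F)) :
    finrank F (W.map (L g)) = finrank F W :=
  (LinearEquiv.finrank_eq (Submodule.equivMapOfInjective (L g) (L_injective g) W)).symm

lemma fixS_commutator (g x : GL (Fin n) F) :
    2 * finrank F (fixS g) ≤ n + finrank F (fixS (g * x * g⁻¹ * x⁻¹)) := by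
  set W := fixS g with hW
  set W' := W.map (L x) with hW'
  have h1 : finrank F W' = finrank F W := finrank_map_L x W
  have h2 : W ⊓ W' ≤ fixS (g * x * g⁻¹ * x⁻¹) := by
    rintro v ⟨hv, hv'⟩
    obtain ⟨w, hw, rfl⟩ := hv'
    have hw' : L g w = w := (mem_fixS g w).1 hw
    have hv2 : L g (L x w) = L x w := (mem_fixS g _).1 hv
    rw [mem_fixS, L_mul_apply, L_mul_apply, L_mul_apply, L_inv_apply]
    have : L g⁻¹ w = w := by
      conv_lhs => rw [← hw']
      exact L_inv_apply g w
    rw [this, hv2]
  have h3 := Submodule.finrank_sup_add_finrank_inf_eq W W'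
  have h4 : finrank F (W ⊔ W' : Submodule F (Fin n → F)) ≤ n := by
    have := Submodule.finrank_le (W ⊔ W')
    simpa using this
  have h5 := Submodule.finrank_mono h2
  omega

lemma map_L_mul (g h : GL (Fin n) F) (W : Submodule F (Fin n → F)) :
    (W.map (L h)).map (L g) = W.map (L (g * h)) := by
  rw [L_mul, Submodule.map_comp]

lemma map_L_one (W : Submodule F (Fin n → F)) : W.map (L (1 : GL (Fin n) F)) = W := by
  rw [L_one, Submodule.map_id]

theorem top_of_indep_orbit [Finite F] (G : Subgroup (GL (Fin n) F))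
    (hirr : Cfsg.Geo.ActsIrreducibly (Cfsg.Geo.matrixSet G))
    (hprim : ∀ (m t : ℕ) (D : Fin t → Submodule F (Fin n → F)), 2 ≤ t → Cfsg.Geo.IsMDecomposition m D →
      ¬ G ≤ Cfsg.Geo.decompositionStabilizer D)
    (W : Submodule F (Fin n → F)) (hW : W ≠ ⊥)
    (hind : iSupIndep (fun U : {U : Submodule F (Fin n → F) // ∃ g ∈ G, U = W.map (L g)} => U.1)) :
    W = ⊤ := by
  classical
  set 𝒟 := {U : Submodule F (Fin n → F) // ∃ g ∈ G, U = W.map (L g)} with h𝒟
  have hfin : Finite 𝒟 := by
    have : Finite (Submodule F (Fin n → F)) := Finite.of_injective (fun U => (U : Set (Fin n → F))) SetLike.coe_injective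
    exact Subtype.finite
  let W0 : 𝒟 := ⟨W, 1, G.one_mem, (map_L_one W).symm⟩
  -- the sum is everything
  have hsup : (⨆ U : 𝒟, U.1) = ⊤ := by
    have hinv : ∀ s ∈ Cfsg.Geo.matrixSet G, (⨆ U : 𝒟, U.1).map (Matrix.toLin' s) ≤ ⨆ U : 𝒟, U.1 := by
      rintro s ⟨g, hg, rfl⟩
      rw [Submodule.map_iSup]
      apply iSup_le
      rintro ⟨U, g', hg', rfl⟩
      have : (W.map (L g')).map (L g) = W.map (L (g * g')) := map_L_mul g g' W
      let U' : 𝒟 := ⟨W.map (L (g * g')), g * g', G.mul_mem hg hg', rfl⟩
      calc _ = U'.1 := this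
        _ ≤ _ := le_iSup (fun U : 𝒟 => U.1) U'
    rcases hirr (⨆ U : 𝒟, U.1) hinv with h | h
    · exfalso
      apply hW
      rw [eq_bot_iff, ← h]
      exact le_iSup (fun U : 𝒟 => U.1) W0
    · exact h
  set t := Nat.card 𝒟 with ht
  let e : 𝒟 ≃ Fin t := Finite.equivFin 𝒟
  let D : Fin t → Submodule F (Fin n → F) := fun i => (e.symm i).1
  by_cases h2 : 2 ≤ t
  · exfalso
    refine hprim (finrank F W) t D h2 ?_ ?_
    · refine ⟨h2, ?_, ?_, ?_, ?_⟩
      · exact Module.finrank_pos_iff.2 ((Submodule.nontrivial_iff_ne_bot).2 hW)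
      · intro i
        obtain ⟨g, hg, hU⟩ := (e.symm i).2
        show finrank F (e.symm i).1 = _
        rw [hU, finrank_map_L]
      · exact hind.comp e.symm.injective
      · rw [← hsup]
        exact e.symm.iSup_comp (g := fun U : 𝒟 => U.1)
    · intro g hg
      let τ : Equiv.Perm 𝒟 :=
        { toFun := fun U => ⟨U.1.map (L g), by
            obtain ⟨g', hg', hU⟩ := U.2
            exact ⟨g * g', G.mul_mem hg hg', by rw [hU, map_L_mul]⟩⟩
          invFun := fun U => ⟨U.1.map (L g⁻¹), by
            obtain ⟨g', hg', hU⟩ := U.2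
            exact ⟨g⁻¹ * g', G.mul_mem (G.inv_mem hg) hg', by rw [hU, map_L_mul]⟩⟩
          left_inv := fun U => by
            apply Subtype.ext
            show (U.1.map (L g)).map (L g⁻¹) = U.1
            rw [map_L_mul, inv_mul_cancel, map_L_one]
          right_inv := fun U => by
            apply Subtype.ext
            show (U.1.map (L g⁻¹)).map (L g) = U.1
            rw [map_L_mul, mul_inv_cancel, map_L_one] }
      refine ⟨e.symm.trans (τ.trans e), fun i => ?_⟩
      show (e.symm i).1.map (L g) = (e.symm (e (τ (e.symm i)))).1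
      rw [Equiv.symm_apply_apply]
      rfl
  · have hsub : Subsingleton 𝒟 := by
      have : Nat.card 𝒟 ≤ 1 := by omega
      exact (Finite.card_le_one_iff_subsingleton).1 this
    rw [← hsup]
    apply le_antisymm
    · exact le_iSup (fun U : 𝒟 => U.1) W0
    · apply iSup_le
      intro U
      rw [Subsingleton.elim U W0]

end Lin

end Cfsg.Agent.Lib.Helper97
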