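import Mathlib
import Cfsg.Prelude.Def_BlockRank
import Cfsg.Agent.Lib.Helper97.BlockRank
import Cfsg.Agent.Lib.Helper35.FirstMainExt
import Cfsg.Agent.Lib.Helper4.PrincipalSection

/-!
# `|H| (k - l)` of a union of blocks as a sum over the nontrivial `p`-elements
-/

set_option autoImplicit false

namespace Cfsg.Agent.Lib.Helper97

open Cfsg Cfsg.Agent.Lib.Helper78 Cfsg.Agent.Lib.Helper16 Cfsg.Agent.Lib.Helper4
open Cfsg.Agent.Lib.Helper35 (tr)
open scoped ComplexConjugate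

noncomputable section

/-! ### transport of the rank -/

section Tr

variable {A B : Type*} [Group A] [Group B] [Fintype A] [Fintype B] (φ : A ≃* B)

theorem blockRank_tr (p : ℕ) (𝔟 : Set (IrrCharacter B)) :
    blockRank p (tr φ 𝔟) = blockRank p 𝔟 := by
  classical
  unfold blockRank
  set L : (B → ℂ) ≃ₗ[ℂ] (A → ℂ) := LinearEquiv.funCongrLeft ℂ ℂ φ.toEquiv with hL
  have hLa : ∀ (f : B → ℂ) (a : A), L f a = f (φ a) := fun f a => rfl
  have himg : (fun ξ : IrrCharacter A => pRegularPart p (ξ : A → ℂ)) '' (tr φ 𝔟)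
      = L '' ((fun χ : IrrCharacter B => pRegularPart p (χ : B → ℂ)) '' 𝔟) := by
    have hcomm : ∀ χ : IrrCharacter B, pRegularPart p ((irrCongr φ χ : IrrCharacter A) : A → ℂ)
        = L (pRegularPart p (χ : B → ℂ)) := by
      intro χ
      funext a
      rw [hLa]
      unfold pRegularPart IsPRegular
      rw [MulEquiv.orderOf_eq φ a]
      rfl
    ext f
    constructor
    · rintro ⟨ξ, hξ, rfl⟩
      obtain ⟨χ, hχ, rfl⟩ := (Cfsg.Agent.Lib.Helper35.mem_tr_iff φ).1 hξ
      exact ⟨_, ⟨χ, hχ, rfl⟩, (hcomm χ).symm⟩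
    · rintro ⟨_, ⟨χ, hχ, rfl⟩, rfl⟩
      exact ⟨irrCongr φ χ, (Cfsg.Agent.Lib.Helper35.irrCongr_mem_tr φ).2 hχ, hcomm χ⟩
  rw [himg, ← LinearEquiv.coe_coe, ← Submodule.map_span]
  exact LinearEquiv.finrank_map_eq L _

end Tr

/-! ### sections -/

section A

variable {K : Type*} [Group K] [Fintype K] {M : Ideal AlgInt} {p : ℕ} [Fact p.Prime]

omit [Fact p.Prime] in
theorem sum_norm_eq_card (U : Set (IrrCharacter K)) :
    ∑ g : K, ∑ᶠ ψ ∈ U, (ψ : K → ℂ) g * conj ((ψ : K → ℂ) g)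
      = (Fintype.card K : ℂ) * (Nat.card U : ℂ) := by
  classical
  simp_rw [finsum_mem_irr]
  rw [Finset.sum_comm]
  have h1 : ∀ χ : IrrCharacter K,
      (∑ g : K, if χ ∈ U then (χ : K → ℂ) g * conj ((χ : K → ℂ) g) else 0)
      = if χ ∈ U then (Fintype.card K : ℂ) else 0 := by
    intro χ
    split_ifs
    · rw [sum_irr_mul_conj, if_pos rfl]
    · simp
  simp_rw [h1]
  rw [← Finset.sum_filter, Finset.sum_const, nsmul_eq_mul, mul_comm ((_ : ℕ) : ℂ),
    Nat.card_eq_fintype_card, Fintype.card_subtype]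

open Classical in
/-- summation over the group by `p`-parts -/
theorem sum_eq_sum_pParts (F : K → ℂ) :
    ∑ g : K, F g = (∑ g : K, if ¬ p ∣ orderOf g then F g else 0) +
      ∑ y : K, if y ≠ 1 ∧ ∃ k : ℕ, orderOf y = p ^ k then
        ∑ c : Cen y, (if ¬ p ∣ orderOf c then F (y * (c : K)) else 0) else 0 := by
  obtain ⟨e, a, he, hea⟩ := exists_pPartExp K p
  have hp : p.Prime := Fact.out
  have h0 : ∑ g : K, F g = ∑ y : K, ∑ g : K, if g ^ e = y then F g else 0 := by
    rw [Finset.sum_comm]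
    refine Finset.sum_congr rfl fun g _ => ?_
    rw [Finset.sum_ite_eq]
    simp
  have h1 : (∑ g : K, if g ^ e = 1 then F g else 0) = ∑ g : K, if ¬ p ∣ orderOf g then F g else 0 := by
    refine Finset.sum_congr rfl fun g _ => ?_
    have : g ^ e = 1 ↔ ¬ p ∣ orderOf g := by
      constructor
      · intro h
        obtain ⟨y, hy, -, -, hy2⟩ := (he g 1).2 h.symm
        rw [one_mul] at hy
        rwa [← hy]
      · intro h
        exact ((he g 1).1 ⟨g, one_mul g, Commute.one_left g, ⟨0, by simp⟩, h⟩).symm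
    simp only [this]
  have h2 : ∀ y : K, y ≠ 1 → (∑ g : K, if g ^ e = y then F g else 0)
      = if y ≠ 1 ∧ ∃ k : ℕ, orderOf y = p ^ k then
        ∑ c : Cen y, (if ¬ p ∣ orderOf c then F (y * (c : K)) else 0) else 0 := by
    intro y hy1
    by_cases hy : ∃ k : ℕ, orderOf y = p ^ k
    · rw [if_pos ⟨hy1, hy⟩, ← Finset.sum_filter, ← Finset.sum_filter]
      symm
      apply Finset.sum_bij (fun (c : Cen y) _ => y * (c : K))
      · intro c hc
        simp only [Finset.mem_filter, Finset.mem_univ, true_and] at hc ⊢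
        have hcc : Commute y (c : K) := (Subgroup.mem_centralizer_singleton_iff.1 c.2).symm
        exact ((he (y * (c : K)) y).1 ⟨c, rfl, hcc, hy, by rwa [Subgroup.orderOf_coe]⟩).symm
      · intro c _ c' _ h
        exact Subtype.ext (mul_left_cancel h)
      · intro g hg
        simp only [Finset.mem_filter, Finset.mem_univ, true_and] at hg
        obtain ⟨z, hxy, hcomm, -, hz⟩ := (he g y).2 hg.symm
        refine ⟨⟨z, Subgroup.mem_centralizer_singleton_iff.2 hcomm.eq.symm⟩, ?_, hxy⟩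
        simp only [Finset.mem_filter, Finset.mem_univ, true_and]
        rwa [← Subgroup.orderOf_coe]
      · intro c _; rfl
    · rw [if_neg (fun h => hy h.2)]
      apply Finset.sum_eq_zero
      intro g _
      rw [if_neg]
      rintro rfl
      apply hy
      obtain ⟨k, -, hk⟩ := (Nat.dvd_prime_pow hp).1 (orderOf_dvd_of_pow_eq_one (hea g))
      exact ⟨k, hk⟩
  rw [h0, ← Finset.add_sum_erase _ _ (Finset.mem_univ (1 : K)), h1]
  congr 1
  rw [← Finset.add_sum_erase Finset.univ (fun y : K => if y ≠ 1 ∧ ∃ k : ℕ, orderOf y = p ^ k then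
        ∑ c : Cen y, (if ¬ p ∣ orderOf c then F (y * (c : K)) else 0) else 0) (Finset.mem_univ (1 : K)),
    if_neg (fun h => h.1 rfl), zero_add]
  exact Finset.sum_congr rfl fun y hy => h2 y (Finset.ne_of_mem_erase hy)

/-- the union of a set of blocks -/
def unionS (S : Set (Set (IrrCharacter K))) : Set (IrrCharacter K) := {ψ | ∃ β ∈ S, ψ ∈ β}

/-- the characters of `C(y)` in blocks inducing a member of `S` -/
def secU (M : Ideal AlgInt) (S : Set (Set (IrrCharacter K))) (y : K) :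
    Set (IrrCharacter (Cen y)) :=
  {θ | ∃ β ∈ S, IsInducedBlock M (Cen y) (blockOf M (θ : Cen y → ℂ)) β}

omit [Fintype K] in
theorem unionS_union (hMp : M.IsPrime) {S : Set (Set (IrrCharacter K))}
    (hS : ∀ β ∈ S, IsPBlock M β) : ∀ ψ ∈ unionS S, blockOf M (ψ : K → ℂ) ⊆ unionS S := by
  rintro ψ ⟨β, hβ, hψ⟩ η hη
  refine ⟨β, hβ, ?_⟩
  rw [IsPBlock.eq_blockOf hMp (hS β hβ) hψ]
  exact hη

omit [Fintype K] in
theorem secU_union (hMp : M.IsPrime) (S : Set (Set (IrrCharacter K))) (y : K) :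
    ∀ θ ∈ secU M S y, blockOf M (θ : Cen y → ℂ) ⊆ secU M S y := by
  rintro θ ⟨β, hβ, hθ⟩ η hη
  refine ⟨β, hβ, ?_⟩
  rw [blockOf_eq_of_mem hMp hη]
  exact hθ

theorem finsum_unionS (hMp : M.IsPrime) {S : Set (Set (IrrCharacter K))}
    (hS : ∀ β ∈ S, IsPBlock M β) (f : IrrCharacter K → ℂ) :
    ∑ᶠ ψ ∈ unionS S, f ψ = ∑ᶠ β ∈ S, ∑ᶠ ψ ∈ β, f ψ := by
  have h : unionS S = ⋃ β ∈ S, β := by
    ext ψ
    simp only [Set.mem_iUnion, exists_prop]
    rfl
  rw [h, finsum_mem_biUnion _ (Set.toFinite _) (fun _ _ => Set.toFinite _)]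
  intro b hb b' hb' hne
  exact Set.disjoint_left.2 fun ψ h1 h2 =>
    hne (IsPBlock.eq_of_mem_mem hMp (hS b hb) (hS b' hb') h1 h2)

theorem finsum_secU (hMp : M.IsPrime) (S : Set (Set (IrrCharacter K))) (y : K)
    (f : IrrCharacter (Cen y) → ℂ) :
    ∑ᶠ θ ∈ secU M S y, f θ = ∑ᶠ β ∈ S, ∑ᶠ θ ∈ indSet M y β, f θ := by
  classical
  have h : secU M S y = ⋃ β ∈ S, indSet M y β := by
    ext ψ
    simp only [Set.mem_iUnion, exists_prop]
    rfl
  rw [h, finsum_mem_biUnion _ (Set.toFinite _) (fun _ _ => Set.toFinite _)]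
  intro b _ b' _ hne
  exact Set.disjoint_left.2 fun ψ h1 h2 =>
    hne (Cfsg.Agent.Lib.Helper35.IsInducedBlock.unique (Cen y) hMp h1 h2)

theorem sum_unionS_section (hM : IsPModular p M) {S : Set (Set (IrrCharacter K))}
    (hS : ∀ β ∈ S, IsPBlock M β) (y : K) (hy : ∃ k : ℕ, orderOf y = p ^ k) (c : Cen y)
    (hc : ¬ p ∣ orderOf c) :
    ∑ᶠ ψ ∈ unionS S, (ψ : K → ℂ) (y * (c : K)) * conj ((ψ : K → ℂ) (y * (c : K)))
      = ∑ᶠ θ ∈ secU M S y, (θ : Cen y → ℂ) c * conj ((θ : Cen y → ℂ) c) := by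
  have hMp : M.IsPrime := hM.2.1.isPrime
  rw [finsum_unionS hMp hS, finsum_secU hMp]
  refine finsum_congr fun β => finsum_congr fun hβ => ?_
  exact sum_block_section hM y hy (hS β hβ) c c hc hc

open Classical in
/-- **`|K| (k - l)` as a sum over the nontrivial `p`-elements.** -/
theorem card_mul_card_sub_rank (hM : IsPModular p M) {S : Set (Set (IrrCharacter K))}
    (hS : ∀ β ∈ S, IsPBlock M β) :
    (Fintype.card K : ℂ) * ((Nat.card (unionS S) : ℂ) - (blockRank p (unionS S) : ℂ))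
      = ∑ y : K, if y ≠ 1 ∧ ∃ k : ℕ, orderOf y = p ^ k then
          (Nat.card (Cen y) : ℂ) * (blockRank p (secU M S y) : ℂ) else 0 := by
  have hMp : M.IsPrime := hM.2.1.isPrime
  have hK : (Fintype.card K : ℂ) ≠ 0 := by exact_mod_cast Fintype.card_ne_zero
  rw [mul_sub, ← sum_norm_eq_card, blockRank_eq hM _ (unionS_union hMp hS),
    mul_inv_cancel_left₀ hK, sum_eq_sum_pParts (p := p), add_sub_cancel_left]
  refine Finset.sum_congr rfl fun y _ => ?_
  by_cases hy : y ≠ 1 ∧ ∃ k : ℕ, orderOf y = p ^ k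
  · rw [if_pos hy, if_pos hy]
    have hC : (Fintype.card (Cen y) : ℂ) ≠ 0 := by exact_mod_cast Fintype.card_ne_zero
    rw [blockRank_eq hM _ (secU_union hMp S y), Nat.card_eq_fintype_card, mul_inv_cancel_left₀ hC]
    refine Finset.sum_congr rfl fun c _ => ?_
    by_cases hc : p ∣ orderOf c
    · simp [hc]
    · rw [if_pos hc, if_pos hc]
      exact sum_unionS_section hM hS y hy.2 c hc
  · rw [if_neg hy, if_neg hy]

end A

/-! ### subgroups of a fixed group -/

section B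

variable {G : Type*} [Group G] [Fintype G] {M : Ideal AlgInt} {p : ℕ} [Fact p.Prime]

/-- the characters of `H` lying in blocks that induce `b` -/
def indU (M : Ideal AlgInt) (H : Subgroup G) (b : Set (IrrCharacter G)) : Set (IrrCharacter H) :=
  {ψ | ∃ β : Set (IrrCharacter H), ψ ∈ β ∧ IsInducedBlock M H β b}

/-- `|L| · l(blocks of L inducing b)` -/
def FnZ (M : Ideal AlgInt) (p : ℕ) (b : Set (IrrCharacter G)) (L : Subgroup G) : ℤ :=
  (Nat.card L : ℤ) * (blockRank p (indU M L b) : ℤ)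

theorem card_mul_rank_eq_FnZ (hM : IsPModular p M) (b : Set (IrrCharacter G)) (H L : Subgroup G)
    (hLH : L ≤ H) (C : Subgroup H) (hC : C = L.subgroupOf H)
    (hdefC : ∀ β' : Set (IrrCharacter C), IsPBlock M β' → InducedBlockDefined M C β')
    (hdefH : ∀ β : Set (IrrCharacter H), IsPBlock M β → InducedBlockDefined M H β) :
    (Nat.card C : ℂ) * (blockRank p {θ : IrrCharacter C | ∃ β ∈ {β | IsInducedBlock M H β b},
        IsInducedBlock M C (blockOf M (θ : C → ℂ)) β} : ℂ) = (FnZ M p b L : ℂ) := by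
  classical
  subst hC
  have hMp : M.IsPrime := hM.2.1.isPrime
  set φ := (Subgroup.subgroupOfEquivOfLe hLH).symm with hφ
  have key : tr φ {θ : IrrCharacter (L.subgroupOf H) | ∃ β ∈ {β | IsInducedBlock M H β b},
        IsInducedBlock M (L.subgroupOf H) (blockOf M (θ : L.subgroupOf H → ℂ)) β}
      = indU M L b := by
    ext ξ
    constructor
    · rintro ⟨β, hβ, hθ⟩
      have := Cfsg.Agent.Lib.Helper35.IsInducedBlock.trans H L hM hLH hθ hβ
      exact ⟨_, mem_blockOf_self hMp ((irrCongr φ).symm ξ), this⟩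
    · rintro ⟨γ, hξγ, hγ⟩
      obtain ⟨β, hβ'⟩ := hdefC (blockOf M (((irrCongr φ).symm ξ : IrrCharacter (L.subgroupOf H)) :
        L.subgroupOf H → ℂ)) (isPBlock_blockOf _)
      obtain ⟨b', hb'⟩ := hdefH β hβ'.2.1
      have t := Cfsg.Agent.Lib.Helper35.IsInducedBlock.trans H L hM hLH hβ' hb'
      have h1 : tr φ (blockOf M (((irrCongr φ).symm ξ : IrrCharacter (L.subgroupOf H)) :
        L.subgroupOf H → ℂ)) = γ :=
        IsPBlock.eq_of_mem_mem hMp t.1 hγ.1 (mem_blockOf_self hMp ((irrCongr φ).symm ξ)) hξγ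
      rw [h1] at t
      have h2 : b' = b := Cfsg.Agent.Lib.Helper35.IsInducedBlock.unique L hMp t hγ
      subst h2
      exact ⟨β, hb', hβ'⟩
  rw [FnZ, ← key, blockRank_tr, Nat.card_congr φ.toEquiv]
  push_cast
  rfl

open Classical in
/-- **`|H| (k - l)` of the blocks of `H` inducing `b`.** -/
theorem card_mul_sub_indU (hM : IsPModular p M) (b : Set (IrrCharacter G)) (H : Subgroup G)
    (hdefH : ∀ β : Set (IrrCharacter H), IsPBlock M β → InducedBlockDefined M H β) :
    (Nat.card H : ℤ) * ((Nat.card (indU M H b) : ℤ) - (blockRank p (indU M H b) : ℤ))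
      = ∑ y : G, if y ∈ H ∧ y ≠ 1 ∧ ∃ k : ℕ, orderOf y = p ^ k then
          FnZ M p b (Subgroup.centralizer ({y} : Set G) ⊓ H) else 0 := by
  apply Int.cast_injective (α := ℂ)
  have hU : unionS {β | IsInducedBlock M H β b} = indU M H b := by
    ext ψ
    constructor
    · rintro ⟨β, hβ, hψ⟩
      exact ⟨β, hψ, hβ⟩
    · rintro ⟨β, hψ, hβ⟩
      exact ⟨β, hβ, hψ⟩
  have hA := card_mul_card_sub_rank (K := H) hM (S := {β | IsInducedBlock M H β b})
    (fun β hβ => hβ.1)
  rw [hU] at hA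
  push_cast
  rw [Nat.card_eq_fintype_card, hA]
  have h1 : ∀ y : H, (if y ≠ 1 ∧ ∃ k : ℕ, orderOf y = p ^ k then
        (Nat.card (Cen y) : ℂ) * (blockRank p (secU M {β | IsInducedBlock M H β b} y) : ℂ) else 0)
      = (fun z : G => if z ≠ 1 ∧ ∃ k : ℕ, orderOf z = p ^ k then
          ((FnZ M p b (Subgroup.centralizer ({z} : Set G) ⊓ H) : ℤ) : ℂ) else 0) (y : G) := by
    intro y
    have hiff : (y ≠ 1 ∧ ∃ k : ℕ, orderOf y = p ^ k)
        ↔ ((y : G) ≠ 1 ∧ ∃ k : ℕ, orderOf (y : G) = p ^ k) := by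
      rw [Subgroup.orderOf_coe, Ne, Ne, OneMemClass.coe_eq_one]
    by_cases hy : y ≠ 1 ∧ ∃ k : ℕ, orderOf y = p ^ k
    · show _ = if _ then _ else _
      rw [if_pos hy, if_pos (hiff.1 hy)]
      apply card_mul_rank_eq_FnZ hM b H _ inf_le_right (Cen y) _
        (fun β' hβ' => inducedBlockDefined_cen hM y hy.2 hβ') hdefH
      ext x
      rw [Subgroup.mem_subgroupOf, Subgroup.mem_inf, Subgroup.mem_centralizer_singleton_iff,
        Subgroup.mem_centralizer_singleton_iff, Subtype.ext_iff]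
      simp
    · show _ = if _ then _ else _
      rw [if_neg hy, if_neg (fun h => hy (hiff.2 h))]
  have h3 : (∑ y : H, if y ≠ 1 ∧ ∃ k : ℕ, orderOf y = p ^ k then
        (Nat.card (Cen y) : ℂ) * (blockRank p (secU M {β | IsInducedBlock M H β b} y) : ℂ) else 0)
      = ∑ y : H, (fun z : G => if z ≠ 1 ∧ ∃ k : ℕ, orderOf z = p ^ k then
          ((FnZ M p b (Subgroup.centralizer ({z} : Set G) ⊓ H) : ℤ) : ℂ) else 0) (y : G) :=
    Finset.sum_congr rfl fun y _ => h1 y
  refine Eq.trans ?_ (h3.trans ?_)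
  · refine Finset.sum_congr rfl fun y _ => ?_
    congr
  have h2 := Finset.sum_subtype (F := inferInstanceAs (Fintype H))
    (Finset.univ.filter (· ∈ H)) (p := (· ∈ H)) (by simp)
    (fun z : G => if z ≠ 1 ∧ ∃ k : ℕ, orderOf z = p ^ k then
          ((FnZ M p b (Subgroup.centralizer ({z} : Set G) ⊓ H) : ℤ) : ℂ) else 0)
  rw [Finset.sum_filter] at h2
  refine Eq.trans ?_ (Eq.trans h2.symm ?_)
  · rfl
  · refine Finset.sum_congr rfl fun z _ => ?_
    by_cases hz : z ∈ H
    · simp [hz]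
    · simp [hz]

open Classical in
/-- the same for the whole group -/
theorem card_mul_sub_block (hM : IsPModular p M) {b : Set (IrrCharacter G)} (hb : IsPBlock M b) :
    (Nat.card G : ℤ) * ((Nat.card b : ℤ) - (blockRank p b : ℤ))
      = ∑ y : G, if y ≠ 1 ∧ ∃ k : ℕ, orderOf y = p ^ k then
          FnZ M p b (Subgroup.centralizer ({y} : Set G)) else 0 := by
  have hMp : M.IsPrime := hM.2.1.isPrime
  apply Int.cast_injective (α := ℂ)
  have hU : unionS {b} = b := by
    ext ψ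
    constructor
    · rintro ⟨β, rfl, hψ⟩
      exact hψ
    · intro hψ
      exact ⟨b, rfl, hψ⟩
  have hA := card_mul_card_sub_rank (K := G) hM (S := {b}) (by rintro β rfl; exact hb)
  rw [hU] at hA
  push_cast
  rw [Nat.card_eq_fintype_card, hA]
  refine Finset.sum_congr rfl fun y _ => ?_
  have hs : secU M {b} y = indU M (Cen y) b := by
    ext θ
    constructor
    · rintro ⟨β, rfl, h⟩
      exact ⟨_, mem_blockOf_self hMp θ, h⟩
    · rintro ⟨β', hθ, h⟩
      refine ⟨b, rfl, ?_⟩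
      rw [← IsPBlock.eq_blockOf hMp h.1 hθ]
      exact h
  rw [hs]
  split_ifs
  · rw [FnZ]; push_cast; rfl
  · rfl

end B

end

end Cfsg.Agent.Lib.Helper97
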