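import Mathlib

/-!
# A parity-reversing involution on the `y`-stable normal chains of `p`-subgroups
-/

set_option autoImplicit false

namespace Cfsg.Agent.Lib.Helper97.Chain

variable {G : Type*} [Group G]

/-- normal chains of nontrivial `p`-subgroups -/
def NC (p : ℕ) (s : Finset (Subgroup G)) : Prop :=
  s.Nonempty ∧ (∀ Q ∈ s, ∀ R ∈ s, Q ≤ R ∨ R ≤ Q) ∧ (∀ Q ∈ s, Q ≠ ⊥ ∧ IsPGroup p Q) ∧
    ∃ T ∈ s, ∀ Q ∈ s, Q ≤ T ∧ T ≤ Subgroup.normalizer ((Q : Subgroup G) : Set G)

/-- the stabilizer of a chain -/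
def stab (s : Finset (Subgroup G)) : Subgroup G :=
  ⨅ Q ∈ s, Subgroup.normalizer ((Q : Subgroup G) : Set G)

theorem mem_stab {s : Finset (Subgroup G)} {g : G} :
    g ∈ stab s ↔ ∀ Q ∈ s, g ∈ Subgroup.normalizer ((Q : Subgroup G) : Set G) := by
  simp [stab, Subgroup.mem_iInf]

/-- `g` maps `Q` into itself by conjugation -/
def Nz (g : G) (Q : Subgroup G) : Prop := ∀ h ∈ Q, g * h * g⁻¹ ∈ Q

theorem nz_of_mem {g : G} {Q : Subgroup G}
    (h : g ∈ Subgroup.normalizer ((Q : Subgroup G) : Set G)) : Nz g Q :=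
  fun x hx => (Subgroup.mem_normalizer_iff.1 h x).1 hx

theorem mem_of_nz [Finite G] {g : G} {Q : Subgroup G} (h : Nz g Q) :
    g ∈ Subgroup.normalizer ((Q : Subgroup G) : Set G) :=
  Subgroup.mem_normalizer_fintype h

theorem nz_iff_map {g : G} {Q : Subgroup G} :
    Nz g Q ↔ Q.map (MulAut.conj g).toMonoidHom ≤ Q := by
  constructor
  · rintro h _ ⟨x, hx, rfl⟩
    exact h x hx
  · intro h x hx
    exact h ⟨x, hx, rfl⟩

theorem nz_bot (g : G) : Nz g (⊥ : Subgroup G) := by
  intro h hh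
  rw [Subgroup.mem_bot] at hh
  subst hh
  simp

theorem nz_sup {g : G} {A B : Subgroup G} (hA : Nz g A) (hB : Nz g B) : Nz g (A ⊔ B) := by
  rw [nz_iff_map] at *
  rw [Subgroup.map_sup]
  exact sup_le_sup hA hB

theorem nz_finset_sup {g : G} (t : Finset (Subgroup G)) (h : ∀ Q ∈ t, Nz g Q) :
    Nz g (t.sup id) :=
  Finset.sup_induction (nz_bot g) (fun _ ha _ hb => nz_sup ha hb) h

theorem nz_zpowers {g y : G} (h : g * y = y * g) : Nz g (Subgroup.zpowers y) := by
  rintro _ ⟨k, rfl⟩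
  have : Commute g (y ^ k) := (show Commute g y from h).zpow_right k
  rw [this.eq, mul_inv_cancel_right]
  exact ⟨k, rfl⟩

/-- the normal closure of `y` under `T` -/
def ncl (y : G) (T : Subgroup G) : Subgroup G :=
  Subgroup.closure {x | ∃ t ∈ T, x = t * y * t⁻¹}

theorem mem_ncl (y : G) (T : Subgroup G) : y ∈ ncl y T :=
  Subgroup.subset_closure ⟨1, T.one_mem, by simp⟩

theorem ncl_le {y : G} {T N : Subgroup G} (hy : y ∈ N) (hN : ∀ t ∈ T, Nz t N) : ncl y T ≤ N := by
  rw [ncl, Subgroup.closure_le]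
  rintro _ ⟨t, ht, rfl⟩
  exact hN t ht y hy

theorem nz_ncl {g y : G} {T : Subgroup G} (hT : Nz g T) (hy : ∃ u ∈ T, g * y * g⁻¹ = u * y * u⁻¹) :
    Nz g (ncl y T) := by
  rw [nz_iff_map, ncl, MonoidHom.map_closure, Subgroup.closure_le]
  rintro _ ⟨_, ⟨t, ht, rfl⟩, rfl⟩
  obtain ⟨u, hu, hgu⟩ := hy
  apply Subgroup.subset_closure
  refine ⟨g * t * g⁻¹ * u, T.mul_mem (hT t ht) hu, ?_⟩
  show g * (t * y * t⁻¹) * g⁻¹ = _
  calc g * (t * y * t⁻¹) * g⁻¹ = (g * t * g⁻¹) * (g * y * g⁻¹) * (g * t * g⁻¹)⁻¹ := by group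
    _ = (g * t * g⁻¹) * (u * y * u⁻¹) * (g * t * g⁻¹)⁻¹ := by rw [hgu]
    _ = _ := by group

theorem nz_self {T : Subgroup G} {g : G} (hg : g ∈ T) : Nz g T :=
  fun h hh => T.mul_mem (T.mul_mem hg hh) (T.inv_mem hg)

theorem nz_ncl_of_mem {g y : G} {T : Subgroup G} (hg : g ∈ T) : Nz g (ncl y T) :=
  nz_ncl (nz_self hg) ⟨g, hg, rfl⟩

/-- a proper subgroup of a finite `p`-group lies in a proper normal subgroup -/
theorem exists_normal_lt [Finite G] {p : ℕ} [Fact p.Prime] {T W : Subgroup G} (hT : IsPGroup p T)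
    (hW : W < T) : ∃ N : Subgroup G, W ≤ N ∧ N < T ∧ ∀ t ∈ T, Nz t N := by
  have : Group.IsNilpotent T := hT.isNilpotent
  have hne : W.subgroupOf T ≠ ⊤ := by
    intro h
    rw [Subgroup.subgroupOf_eq_top] at h
    exact absurd h (not_le_of_gt hW)
  obtain ⟨M', hM', hWM⟩ := (eq_top_or_exists_le_coatom (W.subgroupOf T)).resolve_left hne
  have hn : M'.Normal :=
    Subgroup.NormalizerCondition.normal_of_coatom M' Group.normalizerCondition_of_isNilpotent hM'
  refine ⟨M'.map T.subtype, ?_, ?_, ?_⟩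
  · intro w hw
    exact ⟨⟨w, hW.le hw⟩, hWM (Subgroup.mem_subgroupOf.2 hw), rfl⟩
  · refine lt_of_le_of_ne (Subgroup.map_subtype_le M') ?_
    intro h
    apply hM'.1
    rw [eq_top_iff]
    intro x _
    have hx : (x : G) ∈ M'.map T.subtype := by rw [h]; exact x.2
    obtain ⟨x', hx', hxx⟩ := hx
    have : x' = x := Subtype.ext hxx
    rwa [← this]
  · rintro t ht _ ⟨x, hx, rfl⟩
    exact ⟨⟨t, ht⟩ * x * ⟨t, ht⟩⁻¹, hn.conj_mem x hx ⟨t, ht⟩, rfl⟩

theorem sup_mem_of_chain {α : Type*} [SemilatticeSup α] [OrderBot α] [DecidableEq α]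
    (t : Finset α) (hne : t.Nonempty) (hc : ∀ a ∈ t, ∀ b ∈ t, a ≤ b ∨ b ≤ a) : t.sup id ∈ t := by
  induction t using Finset.induction_on with
  | empty => exact absurd hne (by simp)
  | insert a t _ ih =>
    rw [Finset.sup_insert, id]
    rcases t.eq_empty_or_nonempty with rfl | hne'
    · simp
    · have hm := ih hne' (fun x hx z hz => hc x (Finset.mem_insert_of_mem hx) z
        (Finset.mem_insert_of_mem hz))
      rcases hc a (Finset.mem_insert_self a t) _ (Finset.mem_insert_of_mem hm) with h | h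
      · rw [sup_eq_right.2 h]; exact Finset.mem_insert_of_mem hm
      · rw [sup_eq_left.2 h]; exact Finset.mem_insert_self a t

/-! ### the data attached to a chain -/

open Classical in
/-- the members of the chain not containing `y` -/
noncomputable def low (y : G) (s : Finset (Subgroup G)) : Finset (Subgroup G) :=
  s.filter (fun Q => y ∉ Q)

/-- the top of the chain, enlarged by `y` -/
def tp (y : G) (s : Finset (Subgroup G)) : Subgroup G := s.sup id ⊔ Subgroup.zpowers y

/-- the pivot of the matching -/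
noncomputable def XX (y : G) (s : Finset (Subgroup G)) : Subgroup G :=
  (low y s).sup id ⊔ ncl y (tp y s)

theorem mem_low {y : G} {s : Finset (Subgroup G)} {Q : Subgroup G} :
    Q ∈ low y s ↔ Q ∈ s ∧ y ∉ Q := by
  classical
  simp [low]

section

variable {p : ℕ} {y : G} {s : Finset (Subgroup G)}

theorem NC.sup_spec (hs : NC p s) : s.sup id ∈ s ∧
    ∀ Q ∈ s, Q ≤ s.sup id ∧ s.sup id ≤ Subgroup.normalizer ((Q : Subgroup G) : Set G) := by
  obtain ⟨-, -, -, T, hTs, hT⟩ := hs
  have h : s.sup id = T :=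
    le_antisymm (Finset.sup_le fun Q hQ => (hT Q hQ).1) (Finset.le_sup (f := id) hTs)
  rw [h]
  exact ⟨hTs, hT⟩

theorem mem_tp : y ∈ tp y s := (le_sup_right : Subgroup.zpowers y ≤ tp y s) (Subgroup.mem_zpowers y)

theorem le_tp {Q : Subgroup G} (hQ : Q ∈ s) : Q ≤ tp y s :=
  (Finset.le_sup (f := id) hQ).trans le_sup_left

theorem tp_le_normalizer (hs : NC p s) (hy : y ∈ stab s) {Q : Subgroup G} (hQ : Q ∈ s) :
    tp y s ≤ Subgroup.normalizer ((Q : Subgroup G) : Set G) :=
  sup_le (hs.sup_spec.2 Q hQ).2 (by rw [Subgroup.zpowers_le]; exact mem_stab.1 hy Q hQ)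

theorem isPGroup_tp (hs : NC p s) (hy : y ∈ stab s) (hyp : IsPGroup p (Subgroup.zpowers y)) :
    IsPGroup p (tp y s) := by
  have h1 : IsPGroup p (s.sup id : Subgroup G) := (hs.2.2.1 _ hs.sup_spec.1).2
  have h2 : Subgroup.zpowers y ≤ Subgroup.normalizer ((s.sup id : Subgroup G) : Set G) := by
    rw [Subgroup.zpowers_le]; exact mem_stab.1 hy _ hs.sup_spec.1
  have := hyp.to_sup_of_normal_right' h1 h2
  rwa [sup_comm] at this

theorem XX_le_tp : XX y s ≤ tp y s :=
  sup_le (Finset.sup_le fun _ hQ => le_tp (mem_low.1 hQ).1)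
    (ncl_le mem_tp fun _ ht => nz_self ht)

theorem mem_XX : y ∈ XX y s := (le_sup_right : ncl y (tp y s) ≤ XX y s) (mem_ncl y _)

theorem nz_XX (hs : NC p s) (hy : y ∈ stab s) {g : G} (hg : g ∈ tp y s) : Nz g (XX y s) :=
  nz_sup (nz_finset_sup _ fun _ hQ => nz_of_mem (tp_le_normalizer hs hy (mem_low.1 hQ).1 hg))
    (nz_ncl_of_mem hg)

theorem le_XX {Q : Subgroup G} (hQ : Q ∈ s) (hyQ : y ∉ Q) : Q ≤ XX y s :=
  (Finset.le_sup (f := id) (mem_low.2 ⟨hQ, hyQ⟩)).trans le_sup_left

theorem XX_le (hs : NC p s) (hy : y ∈ stab s) {Q : Subgroup G} (hQ : Q ∈ s) (hyQ : y ∈ Q) :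
    XX y s ≤ Q := by
  refine sup_le (Finset.sup_le fun R hR => ?_)
    (ncl_le hyQ fun t ht => nz_of_mem (tp_le_normalizer hs hy hQ ht))
  obtain ⟨hRs, hyR⟩ := mem_low.1 hR
  rcases hs.2.1 R hRs Q hQ with h | h
  · exact h
  · exact absurd (h hyQ) hyR

theorem XX_congr {s' : Finset (Subgroup G)} (h1 : low y s' = low y s) (h2 : tp y s' = tp y s) :
    XX y s' = XX y s := by
  rw [XX, XX, h1, h2]

theorem normalizes_XX [Finite G] {g : G} (hg : g ∈ stab s) (hgy : g * y = y * g) :
    g ∈ Subgroup.normalizer ((XX y s : Subgroup G) : Set G) := by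
  apply mem_of_nz
  have h1 : ∀ Q ∈ s, Nz g Q := fun Q hQ => nz_of_mem (mem_stab.1 hg Q hQ)
  refine nz_sup (nz_finset_sup _ fun Q hQ => h1 Q (mem_low.1 hQ).1) (nz_ncl ?_ ?_)
  · exact nz_sup (nz_finset_sup _ h1) (nz_zpowers hgy)
  · exact ⟨1, Subgroup.one_mem _, by rw [hgy]; simp⟩

open Classical in
theorem low_insert : low y (insert (XX y s) s) = low y s := by
  ext Q
  simp only [mem_low, Finset.mem_insert]
  constructor
  · rintro ⟨rfl | h, h2⟩
    · exact absurd mem_XX h2
    · exact ⟨h, h2⟩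
  · rintro ⟨h, h2⟩
    exact ⟨Or.inr h, h2⟩

open Classical in
theorem low_erase : low y (s.erase (XX y s)) = low y s := by
  ext Q
  simp only [mem_low, Finset.mem_erase]
  constructor
  · rintro ⟨⟨-, h⟩, h2⟩
    exact ⟨h, h2⟩
  · rintro ⟨h, h2⟩
    refine ⟨⟨?_, h⟩, h2⟩
    rintro rfl
    exact h2 mem_XX

open Classical in
theorem insert_spec [Finite G] (hs : NC p s) (hy : y ∈ stab s) (hy1 : y ≠ 1)
    (hyp : IsPGroup p (Subgroup.zpowers y)) :
    NC p (insert (XX y s) s) ∧ y ∈ stab (insert (XX y s) s) ∧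
      tp y (insert (XX y s) s) = tp y s := by
  have hXn : ∀ g ∈ tp y s, g ∈ Subgroup.normalizer ((XX y s : Subgroup G) : Set G) :=
    fun g hg => mem_of_nz (nz_XX hs hy hg)
  refine ⟨⟨Finset.insert_nonempty _ _, ?_, ?_, tp y s, ?_, ?_⟩, ?_, ?_⟩
  · have key : ∀ Q ∈ s, Q ≤ XX y s ∨ XX y s ≤ Q := by
      intro Q hQ
      by_cases hyQ : y ∈ Q
      · exact Or.inr (XX_le hs hy hQ hyQ)
      · exact Or.inl (le_XX hQ hyQ)
    intro Q hQ R hR
    rw [Finset.mem_insert] at hQ hR
    rcases hQ with rfl | hQ <;> rcases hR with rfl | hR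
    · exact Or.inl le_rfl
    · exact (key R hR).symm
    · exact key Q hQ
    · exact hs.2.1 Q hQ R hR
  · intro Q hQ
    rw [Finset.mem_insert] at hQ
    rcases hQ with rfl | hQ
    · refine ⟨?_, (isPGroup_tp hs hy hyp).to_le XX_le_tp⟩
      intro h
      have := mem_XX (y := y) (s := s)
      rw [h, Subgroup.mem_bot] at this
      exact hy1 this
    · exact hs.2.2.1 Q hQ
  · by_cases hyT : y ∈ s.sup id
    · have : tp y s = s.sup id := sup_eq_left.2 (by rwa [Subgroup.zpowers_le])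
      rw [this]
      exact Finset.mem_insert_of_mem hs.sup_spec.1
    · have : XX y s = tp y s :=
        le_antisymm XX_le_tp (sup_le (le_XX hs.sup_spec.1 hyT) (by
          rw [Subgroup.zpowers_le]; exact mem_XX))
      rw [← this]
      exact Finset.mem_insert_self _ _
  · intro Q hQ
    rw [Finset.mem_insert] at hQ
    rcases hQ with rfl | hQ
    · exact ⟨XX_le_tp, hXn⟩
    · exact ⟨le_tp hQ, tp_le_normalizer hs hy hQ⟩
  · rw [mem_stab]
    intro Q hQ
    rw [Finset.mem_insert] at hQ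
    rcases hQ with rfl | hQ
    · exact hXn y mem_tp
    · exact mem_stab.1 hy Q hQ
  · rw [tp, Finset.sup_insert, id]
    apply le_antisymm
    · exact sup_le (sup_le XX_le_tp le_sup_left) le_sup_right
    · exact sup_le (le_sup_right.trans le_sup_left) le_sup_right

open Classical in
theorem erase_spec [Finite G] [Fact p.Prime] (hs : NC p s) (hy : y ∈ stab s)
    (hX : XX y s ∈ s) (hne : s ≠ {Subgroup.zpowers y}) :
    NC p (s.erase (XX y s)) ∧ y ∈ stab (s.erase (XX y s)) ∧
      tp y (s.erase (XX y s)) = tp y s := by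
  have hstab : y ∈ stab (s.erase (XX y s)) :=
    mem_stab.2 fun Q hQ => mem_stab.1 hy Q (Finset.mem_of_mem_erase hQ)
  obtain ⟨hTs, hT⟩ := hs.sup_spec
  have hyT : y ∈ s.sup id := (hT _ hX).1 mem_XX
  have htp : tp y s = s.sup id := sup_eq_left.2 (by rwa [Subgroup.zpowers_le])
  by_cases hXT : XX y s = s.sup id
  · -- the pivot is the top
    have hlow : s.erase (XX y s) = low y s := by
      ext Q
      rw [Finset.mem_erase, mem_low]
      constructor
      · rintro ⟨h1, h2⟩
        refine ⟨h2, fun hyQ => h1 ?_⟩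
        exact le_antisymm (by rw [hXT]; exact (hT Q h2).1) (XX_le hs hy h2 hyQ)
      · rintro ⟨h1, h2⟩
        refine ⟨?_, h1⟩
        rintro rfl
        exact h2 mem_XX
    have hAle : (low y s).sup id ≤ s.sup id := Finset.sup_le fun Q hQ => (hT Q (mem_low.1 hQ).1).1
    have hW : (low y s).sup id ⊔ Subgroup.zpowers y = s.sup id := by
      by_contra hcon
      have hlt : (low y s).sup id ⊔ Subgroup.zpowers y < s.sup id :=
        lt_of_le_of_ne (sup_le hAle (by rwa [Subgroup.zpowers_le])) hcon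
      obtain ⟨N, hWN, hNT, hN⟩ := exists_normal_lt (hs.2.2.1 _ hTs).2 hlt
      have : XX y s ≤ N := by
        refine sup_le (le_sup_left.trans hWN) (ncl_le ?_ ?_)
        · exact hWN ((le_sup_right : Subgroup.zpowers y ≤ _) (Subgroup.mem_zpowers y))
        · rw [htp]; exact hN
      rw [hXT] at this
      exact absurd this (not_le_of_gt hNT)
    have hlne : (low y s).Nonempty := by
      rw [Finset.nonempty_iff_ne_empty]
      intro he
      apply hne
      rw [he, Finset.sup_empty, bot_sup_eq] at hW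
      rw [he] at hlow
      rw [hW, ← hXT]
      ext Q
      rw [Finset.mem_singleton]
      constructor
      · intro hQ
        by_contra hQX
        have : Q ∈ s.erase (XX y s) := Finset.mem_erase.2 ⟨hQX, hQ⟩
        rw [hlow] at this
        simp at this
      · rintro rfl
        exact hX
    have hAm : (low y s).sup id ∈ low y s :=
      sup_mem_of_chain _ hlne fun a ha b hb => hs.2.1 a (mem_low.1 ha).1 b (mem_low.1 hb).1
    refine ⟨?_, hstab, ?_⟩
    · rw [hlow]
      refine ⟨hlne, fun a ha b hb => hs.2.1 a (mem_low.1 ha).1 b (mem_low.1 hb).1,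
        fun Q hQ => hs.2.2.1 Q (mem_low.1 hQ).1, _, hAm, fun Q hQ => ?_⟩
      exact ⟨Finset.le_sup (f := id) hQ, hAle.trans (hT Q (mem_low.1 hQ).1).2⟩
    · rw [hlow, tp, hW, htp]
  · have hTe : s.sup id ∈ s.erase (XX y s) := Finset.mem_erase.2 ⟨fun h => hXT h.symm, hTs⟩
    refine ⟨⟨⟨_, hTe⟩, fun a ha b hb => hs.2.1 a (Finset.mem_of_mem_erase ha) b
      (Finset.mem_of_mem_erase hb), fun Q hQ => hs.2.2.1 Q (Finset.mem_of_mem_erase hQ), _, hTe,
      fun Q hQ => hT Q (Finset.mem_of_mem_erase hQ)⟩, hstab, ?_⟩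
    have : (s.erase (XX y s)).sup id = s.sup id :=
      le_antisymm (Finset.sup_mono (Finset.erase_subset _ _)) (Finset.le_sup (f := id) hTe)
    rw [tp, this, tp]

open Classical in
/-- the involution -/
noncomputable def flip (y : G) (s : Finset (Subgroup G)) : Finset (Subgroup G) :=
  if XX y s ∈ s then s.erase (XX y s) else insert (XX y s) s

theorem neg_one_pow_pred (n : ℕ) (hn : 1 ≤ n) : (-1 : ℤ) ^ (n + 1 - 1) = - (-1) ^ (n - 1) := by
  obtain ⟨m, rfl⟩ : ∃ m, n = m + 1 := ⟨n - 1, by omega⟩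
  simp [pow_succ]

open Classical in
theorem cen_stab_insert [Finite G] :
    Subgroup.centralizer ({y} : Set G) ⊓ stab (insert (XX y s) s)
      = Subgroup.centralizer ({y} : Set G) ⊓ stab s := by
  ext g
  simp only [Subgroup.mem_inf, mem_stab, Finset.forall_mem_insert]
  constructor
  · rintro ⟨h1, -, h2⟩
    exact ⟨h1, h2⟩
  · rintro ⟨h1, h2⟩
    exact ⟨h1, normalizes_XX (mem_stab.2 h2) (Subgroup.mem_centralizer_singleton_iff.1 h1), h2⟩

open Classical in
theorem flip_spec [Finite G] [Fact p.Prime] (hs : NC p s) (hy : y ∈ stab s) (hy1 : y ≠ 1)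
    (hyp : IsPGroup p (Subgroup.zpowers y)) (hne : s ≠ {Subgroup.zpowers y}) :
    (NC p (flip y s) ∧ y ∈ stab (flip y s)) ∧ flip y s ≠ {Subgroup.zpowers y} ∧
      flip y (flip y s) = s ∧ flip y s ≠ s ∧
      Subgroup.centralizer ({y} : Set G) ⊓ stab (flip y s)
        = Subgroup.centralizer ({y} : Set G) ⊓ stab s ∧
      (-1 : ℤ) ^ ((flip y s).card - 1) = - (-1) ^ (s.card - 1) := by
  by_cases hX : XX y s ∈ s
  · obtain ⟨h1, h2, h3⟩ := erase_spec hs hy hX hne
    have hXX : XX y (s.erase (XX y s)) = XX y s := XX_congr low_erase h3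
    have hfl : flip y s = s.erase (XX y s) := if_pos hX
    rw [hfl]
    refine ⟨⟨h1, h2⟩, ?_, ?_, ?_, ?_, ?_⟩
    · intro h
      have hz : Subgroup.zpowers y ∈ s.erase (XX y s) := by rw [h]; exact Finset.mem_singleton_self _
      obtain ⟨hz1, hz2⟩ := Finset.mem_erase.1 hz
      apply hz1
      exact le_antisymm (by rw [Subgroup.zpowers_le]; exact mem_XX)
        (XX_le hs hy hz2 (Subgroup.mem_zpowers y))
    · rw [flip, hXX, if_neg (Finset.notMem_erase _ _), Finset.insert_erase hX]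
    · intro h
      have := Finset.notMem_erase (XX y s) s
      rw [h] at this
      exact this hX
    · have := cen_stab_insert (y := y) (s := s.erase (XX y s))
      rw [hXX, Finset.insert_erase hX] at this
      exact this.symm
    · have hc : (s.erase (XX y s)).card + 1 = s.card := Finset.card_erase_add_one hX
      have h1' : 1 ≤ (s.erase (XX y s)).card := Finset.card_pos.2 h1.1
      rw [← hc, neg_one_pow_pred _ h1', neg_neg]
  · obtain ⟨h1, h2, h3⟩ := insert_spec hs hy hy1 hyp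
    have hXX : XX y (insert (XX y s) s) = XX y s := XX_congr low_insert h3
    have hfl : flip y s = insert (XX y s) s := if_neg hX
    have hc : (insert (XX y s) s).card = s.card + 1 := Finset.card_insert_of_notMem hX
    have h1' : 1 ≤ s.card := Finset.card_pos.2 hs.1
    rw [hfl]
    refine ⟨⟨h1, h2⟩, ?_, ?_, ?_, cen_stab_insert, ?_⟩
    · intro h
      rw [h, Finset.card_singleton] at hc
      omega
    · rw [flip, hXX, if_pos (Finset.mem_insert_self _ _), Finset.erase_insert hX]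
    · intro h
      rw [h] at hc
      omega
    · rw [hc, neg_one_pow_pred _ h1']

theorem nc_singleton (hy1 : y ≠ 1) (hyp : IsPGroup p (Subgroup.zpowers y)) :
    NC p ({Subgroup.zpowers y} : Finset (Subgroup G)) ∧
      y ∈ stab ({Subgroup.zpowers y} : Finset (Subgroup G)) := by
  refine ⟨⟨Finset.singleton_nonempty _, ?_, ?_, _, Finset.mem_singleton_self _, ?_⟩, ?_⟩
  · intro Q hQ R hR
    rw [Finset.mem_singleton] at hQ hR
    subst hQ; subst hR
    exact Or.inl le_rfl
  · intro Q hQ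
    rw [Finset.mem_singleton] at hQ
    subst hQ
    refine ⟨?_, hyp⟩
    intro h
    rw [Subgroup.zpowers_eq_bot] at h
    exact hy1 h
  · intro Q hQ
    rw [Finset.mem_singleton] at hQ
    subst hQ
    exact ⟨le_rfl, Subgroup.le_normalizer⟩
  · rw [mem_stab]
    intro Q hQ
    rw [Finset.mem_singleton] at hQ
    subst hQ
    exact Subgroup.le_normalizer (Subgroup.mem_zpowers y)

theorem cen_stab_singleton [Finite G] :
    Subgroup.centralizer ({y} : Set G) ⊓ stab ({Subgroup.zpowers y} : Finset (Subgroup G))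
      = Subgroup.centralizer ({y} : Set G) := by
  rw [inf_eq_left]
  intro g hg
  rw [mem_stab]
  intro Q hQ
  rw [Finset.mem_singleton] at hQ
  subst hQ
  exact mem_of_nz (nz_zpowers (Subgroup.mem_centralizer_singleton_iff.1 hg))

open Classical in
/-- **The alternating sum over the `y`-stable normal chains collapses.** -/
theorem chain_sum [Finite G] [Fact p.Prime] (hy1 : y ≠ 1) (hyp : IsPGroup p (Subgroup.zpowers y))
    (S : Finset (Finset (Subgroup G))) (hS : ∀ s, s ∈ S ↔ NC p s ∧ y ∈ stab s)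
    (F : Subgroup G → ℤ) :
    ∑ s ∈ S, (-1 : ℤ) ^ (s.card - 1) * F (Subgroup.centralizer ({y} : Set G) ⊓ stab s)
      = F (Subgroup.centralizer ({y} : Set G)) := by
  have h0 : ({Subgroup.zpowers y} : Finset (Subgroup G)) ∈ S := (hS _).2 (nc_singleton hy1 hyp)
  rw [← Finset.add_sum_erase S _ h0, cen_stab_singleton, Finset.card_singleton]
  have hz : ∑ s ∈ S.erase {Subgroup.zpowers y},
      (-1 : ℤ) ^ (s.card - 1) * F (Subgroup.centralizer ({y} : Set G) ⊓ stab s) = 0 := by
    have key : ∀ s ∈ S.erase {Subgroup.zpowers y}, _ := fun s hs =>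
      flip_spec ((hS s).1 (Finset.mem_of_mem_erase hs)).1 ((hS s).1 (Finset.mem_of_mem_erase hs)).2
        hy1 hyp (Finset.ne_of_mem_erase hs)
    apply Finset.sum_involution (fun s _ => flip y s)
    · intro s hs
      obtain ⟨-, -, -, -, h5, h6⟩ := key s hs
      rw [h5, h6]
      ring
    · intro s hs _
      exact (key s hs).2.2.2.1
    · intro s hs
      obtain ⟨h1, h2, -⟩ := key s hs
      exact Finset.mem_erase.2 ⟨h2, (hS _).2 h1⟩
    · intro s hs
      exact (key s hs).2.2.1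
  rw [hz]
  simp

end

end Cfsg.Agent.Lib.Helper97.Chain
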