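import Mathlib
import Cfsg.Agent.Lib.Helper77.MaxPairs
import Cfsg.Agent.Lib.Helper22.PiCoreOf
import Cfsg.Agent.Lib.Helper77.BFus

/-!
# Kernels of block idempotents along Brauer pairs (abstract part)

For a subgroup `K` write `sg K = ∑_{x ∈ K} x ∈ k[G]`.  A block idempotent `e` "has `K` in its
kernel" when `sg K * e = |K| e`.
-/

set_option autoImplicit false
set_option linter.unusedSectionVars false

namespace Cfsg.Agent.Lib.Helper97

open MonoidAlgebra Cfsg Cfsg.Agent.Lib.Helper77 Cfsg.Agent.Lib.Helper22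

universe u v

section ring

variable {k : Type v} [CommRing k] {G : Type u} [Group G] [Finite G]

open Classical in
/-- the sum of the elements of a subgroup -/
noncomputable def sg (k : Type v) [CommRing k] (K : Subgroup G) : MonoidAlgebra k G :=
  ofFun fun g => if g ∈ K then 1 else 0

open Classical in
theorem coeff_sg (K : Subgroup G) (x : G) : (sg k K).coeff x = if x ∈ K then 1 else 0 := rfl

theorem suppIn_sg {K H : Subgroup G} (h : K ≤ H) : SuppIn H (sg k K) := by
  classical
  intro x hx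
  rw [coeff_sg, if_neg (fun hk => hx (h hk))]

theorem fixedBy_sg {K P : Subgroup G} (h : P ≤ Subgroup.normalizer (K : Set G)) :
    FixedBy P (sg k K) := by
  classical
  rw [fixedBy_iff_coeff]
  intro u hu x
  rw [coeff_sg, coeff_sg]
  have := Subgroup.mem_normalizer_iff.1 (h hu) x
  simp only [this]

theorem trunc_sg (K H : Subgroup G) : trunc H (sg k K) = sg k (K ⊓ H) := by
  classical
  apply ma_ext; intro x
  rw [coeff_trunc, coeff_sg, coeff_sg]
  by_cases h1 : x ∈ H <;> by_cases h2 : x ∈ K <;> simp [h1, h2, Subgroup.mem_inf]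

theorem sg_mul_sg {L K : Subgroup G} (h : L ≤ K) :
    sg k L * sg k K = (Nat.card L : k) • sg k K := by
  classical
  have := Fintype.ofFinite G
  apply ma_ext; intro x
  rw [coeff_mul_left, coeff_smul, Finsupp.smul_apply]
  simp only [coeff_sg]
  have h1 : ∀ y : G, (if y ∈ L then (1 : k) else 0) * (if y⁻¹ * x ∈ K then 1 else 0)
      = if y ∈ L then (if x ∈ K then 1 else 0) else 0 := by
    intro y
    by_cases hy : y ∈ L
    · have : y⁻¹ * x ∈ K ↔ x ∈ K := by
        constructor
        · intro h2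
          have := K.mul_mem (h hy) h2
          simpa using this
        · intro h2
          exact K.mul_mem (K.inv_mem (h hy)) h2
      simp [hy, this]
    · simp [hy]
  simp only [h1]
  rw [← Finset.sum_filter, Finset.sum_const, smul_eq_mul, nsmul_eq_mul]
  congr 2
  rw [Nat.card_eq_fintype_card, Fintype.card_subtype]

theorem cj_sg (g : G) (K : Subgroup G) :
    cj g (sg k K) = sg k (K.map (MulAut.conj g).toMonoidHom) := by
  classical
  apply ma_ext; intro x
  rw [coeff_cj, coeff_sg, coeff_sg]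
  have : g⁻¹ * x * g ∈ K ↔ x ∈ K.map (MulAut.conj g).toMonoidHom := by
    rw [mem_map_conj_iff]
  simp only [this]

/-- `K` is in the kernel of `e` -/
def KerOn (K : Subgroup G) (e : MonoidAlgebra k G) : Prop := sg k K * e = (Nat.card K : k) • e

theorem KerOn.mul_right {K : Subgroup G} {e e' : MonoidAlgebra k G} (h : KerOn K e) :
    KerOn K (e * e') := by
  unfold KerOn at h ⊢
  rw [← mul_assoc, h, smul_mul_assoc]

theorem KerOn.cj {K : Subgroup G} {e : MonoidAlgebra k G} (h : KerOn K e) (g : G) :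
    KerOn (K.map (MulAut.conj g).toMonoidHom) (cj g e) := by
  unfold KerOn at h ⊢
  rw [← cj_sg, ← map_mul, h, card_map_conj]
  apply ma_ext; intro x
  simp [coeff_smul]

end ring

section field

variable {k : Type v} [Field k] {G : Type u} [Group G] [Finite G]

theorem KerOn.mono {L K : Subgroup G} {e : MonoidAlgebra k G} (h : KerOn K e) (hLK : L ≤ K)
    (hK : (Nat.card K : k) ≠ 0) : KerOn L e := by
  unfold KerOn at h ⊢
  have h1 : (Nat.card K : k) • (sg k L * e) = (Nat.card K : k) • ((Nat.card L : k) • e) := by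
    rw [← mul_smul_comm, ← h, ← mul_assoc, sg_mul_sg hLK, smul_mul_assoc, h, smul_comm]
  have h2 := congrArg (fun a => (Nat.card K : k)⁻¹ • a) h1
  simpa [smul_smul, inv_mul_cancel₀ hK, ← mul_assoc] using h2

theorem KerOn.ne_zero {K : Subgroup G} {e : MonoidAlgebra k G} (h : KerOn K e)
    (hK : (Nat.card K : k) ≠ 0) (he : e ≠ 0) : sg k K * e ≠ 0 := by
  rw [h]
  exact smul_ne_zero hK he

/-- dichotomy for a block idempotent and a normal subgroup of invertible order -/
theorem kerOn_or {H K : Subgroup G} {e : MonoidAlgebra k G} (he : IsPrimIdem H e) (hKH : K ≤ H)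
    (hn : H ≤ Subgroup.normalizer (K : Set G)) (hK : (Nat.card K : k) ≠ 0) :
    KerOn K e ∨ sg k K * e = 0 := by
  have hmem : (Nat.card K : k)⁻¹ • sg k K ∈ zsub k H := by
    refine ⟨?_, ?_⟩
    · intro x hx
      rw [coeff_smul, Finsupp.smul_apply, suppIn_sg hKH x hx, smul_zero]
    · intro u hu
      have := fixedBy_sg (k := k) hn u hu
      apply ma_ext; intro x
      have h2 := congrArg (fun a => a.coeff x) this
      simp only [coeff_cj, coeff_smul, Finsupp.smul_apply] at h2 ⊢
      rw [h2]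
  have hid : ((Nat.card K : k)⁻¹ • sg k K) * ((Nat.card K : k)⁻¹ • sg k K)
      = (Nat.card K : k)⁻¹ • sg k K := by
    rw [smul_mul_smul_comm, sg_mul_sg le_rfl, smul_smul, mul_assoc, inv_mul_cancel₀ hK, mul_one]
  rcases he.prim _ hmem hid with h | h
  · left
    unfold KerOn
    rw [smul_mul_assoc] at h
    have h2 := congrArg (fun a => (Nat.card K : k) • a) h
    simpa [smul_smul, mul_inv_cancel₀ hK] using h2
  · right
    rw [smul_mul_assoc] at h
    have h2 := congrArg (fun a => (Nat.card K : k) • a) h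
    simpa [smul_smul, mul_inv_cancel₀ hK] using h2

end field

/-! ### `O_{π'}` of centralizers along chains of Brauer pairs -/

section core

variable {G : Type u} [Group G] [Finite G]

theorem map_piCoreOf_le (π : Set ℕ) (φ : G ≃* G) (X : Subgroup G) :
    (piCoreOf π X).map φ.toMonoidHom ≤ piCoreOf π (X.map φ.toMonoidHom) := by
  apply le_piCoreOf π (Subgroup.map_mono (piCoreOf_le π X))
  · exact (Subgroup.map_mono (le_normalizer_piCoreOf π X)).trans (Subgroup.le_normalizer_map _)
  · intro q hq hd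
    rw [Subgroup.card_map_of_injective φ.injective] at hd
    exact piCoreOf_primes π X q hq hd

theorem piCoreOf_map_conj (π : Set ℕ) (g : G) (X : Subgroup G) :
    piCoreOf π (X.map (MulAut.conj g).toMonoidHom)
      = (piCoreOf π X).map (MulAut.conj g).toMonoidHom := by
  apply le_antisymm _ (map_piCoreOf_le π (MulAut.conj g) X)
  have h1 := map_piCoreOf_le π (MulAut.conj g⁻¹) (X.map (MulAut.conj g).toMonoidHom)
  rw [map_conj_inv_map_conj] at h1
  have h2 := Subgroup.map_mono (f := (MulAut.conj g).toMonoidHom) h1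
  have h3 := map_conj_inv_map_conj g⁻¹ (piCoreOf π (X.map (MulAut.conj g).toMonoidHom))
  rw [inv_inv] at h3
  rwa [h3] at h2

/-- `O_{π'}(C_G(Q))` as a subgroup of `G` -/
noncomputable def KK (π : Set ℕ) (Q : Subgroup G) : Subgroup G := piCoreOf {q | q ∉ π} (Cen Q)

theorem KK_le (π : Set ℕ) (Q : Subgroup G) : KK π Q ≤ Cen Q := piCoreOf_le _ _

theorem KK_primes (π : Set ℕ) (Q : Subgroup G) :
    ∀ q : ℕ, q.Prime → q ∣ Nat.card (KK π Q) → q ∉ π := piCoreOf_primes _ _

theorem cen_le_normalizer_KK (π : Set ℕ) (Q : Subgroup G) :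
    Cen Q ≤ Subgroup.normalizer (KK π Q : Set G) := le_normalizer_piCoreOf _ _

theorem normalizer_le_normalizer_KK (π : Set ℕ) (Q : Subgroup G) :
    Subgroup.normalizer (Q : Set G) ≤ Subgroup.normalizer (KK π Q : Set G) :=
  (normalizer_le_normalizer_centralizer Q).trans (normalizer_le_normalizer_piCoreOf _ _)

theorem le_KK (π : Set ℕ) {Q L : Subgroup G} (h1 : L ≤ Cen Q)
    (h2 : Cen Q ≤ Subgroup.normalizer (L : Set G))
    (h3 : ∀ q : ℕ, q.Prime → q ∣ Nat.card L → q ∉ π) : L ≤ KK π Q :=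
  le_piCoreOf _ h1 h2 h3

theorem KK_map_conj (π : Set ℕ) (g : G) (Q : Subgroup G) :
    KK π (Q.map (MulAut.conj g).toMonoidHom) = (KK π Q).map (MulAut.conj g).toMonoidHom := by
  unfold KK
  rw [← piCoreOf_map_conj]
  congr 1
  exact centralizer_map_conj Q g

/-- a normal `π'`-subgroup `K` of an overgroup `X ⊇ C_G(P)` meets `C_G(P)` inside `O_{π'}(C_G(P))` -/
theorem inf_cen_le_KK (π : Set ℕ) {K X P : Subgroup G} (hX : Cen P ≤ X)
    (hn : X ≤ Subgroup.normalizer (K : Set G))
    (hK : ∀ q : ℕ, q.Prime → q ∣ Nat.card K → q ∉ π) : K ⊓ Cen P ≤ KK π P := by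
  apply le_KK π inf_le_right
  · refine le_trans ?_ Subgroup.inf_normalizer_le_normalizer_inf
    exact le_inf (hX.trans hn) Subgroup.le_normalizer
  · intro q hq hd
    exact hK q hq (hd.trans (Subgroup.card_dvd_of_le inf_le_left))

/-- every `π'`-element of `C_G(Q)` lies in `O_{π'}(C_G(Q))` -/
def HC (π : Set ℕ) (Q : Subgroup G) : Prop :=
  ∀ g ∈ Cen Q, (∀ q : ℕ, q.Prime → q ∣ orderOf g → q ∉ π) → g ∈ KK π Q

theorem HC.map_conj {π : Set ℕ} {Q : Subgroup G} (h : HC π Q) (g : G) :
    HC π (Q.map (MulAut.conj g).toMonoidHom) := by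
  intro c hc hord
  rw [KK_map_conj, mem_map_conj_iff]
  have hc' : c ∈ (Cen Q).map (MulAut.conj g).toMonoidHom := by
    rw [← centralizer_map_conj]; exact hc
  rw [mem_map_conj_iff] at hc'
  apply h _ hc'
  have ho : orderOf (g⁻¹ * c * g) = orderOf c := by
    have := orderOf_injective (MulAut.conj g⁻¹).toMonoidHom (MulAut.conj g⁻¹).injective c
    simpa [MulAut.conj_apply] using this
  rw [ho]
  exact hord

end core

section chain

variable {k : Type v} [Field k] {G : Type u} [Group G] [Finite G] {p : ℕ} [Fact p.Prime]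
  [CharP k p]

theorem card_ne_zero_of_primes {π : Set ℕ} (hpπ : p ∈ π) {K : Subgroup G}
    (hK : ∀ q : ℕ, q.Prime → q ∣ Nat.card K → q ∉ π) : (Nat.card K : k) ≠ 0 := by
  rw [Ne, CharP.cast_eq_zero_iff k p]
  intro h
  exact hK p Fact.out h hpπ

theorem trunc_smul (H : Subgroup G) (c : k) (a : MonoidAlgebra k G) :
    trunc H (c • a) = c • trunc H a := by
  classical
  apply ma_ext; intro x
  rw [coeff_trunc, coeff_smul, coeff_smul, Finsupp.smul_apply, Finsupp.smul_apply, coeff_trunc]
  split_ifs <;> simp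

/-- General **descent**: `X ⊇ C_G(P)` a subgroup, `ε` a block idempotent of `X` fixed by the
`p`-group `P`, `K ⊴ X` a `π'`-subgroup normalized by `P`, `e` an element with
`Br_P(ε) e = e ≠ 0` having `O_{π'}(C_G(P))` in its kernel. Then `K` is in the kernel of `ε`. -/
theorem kerOn_of_trunc {π : Set ℕ} (hpπ : p ∈ π) {X K P : Subgroup G} {ε e : MonoidAlgebra k G}
    (hε : IsPrimIdem X ε) (hKX : K ≤ X) (hn : X ≤ Subgroup.normalizer (K : Set G))
    (hK : ∀ q : ℕ, q.Prime → q ∣ Nat.card K → q ∉ π) (hP : IsPGroup p P) (hCX : Cen P ≤ X)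
    (hPK : P ≤ Subgroup.normalizer (K : Set G)) (hfix : FixedBy P ε)
    (htr : trunc (Cen P) ε * e = e) (he : e ≠ 0) (hker : KerOn (KK π P) e) : KerOn K ε := by
  rcases kerOn_or hε hKX hn (card_ne_zero_of_primes (p := p) hpπ hK) with h1 | h1
  · exact h1
  · exfalso
    have h2 := trunc_centralizer_mul p P hP (fixedBy_sg (k := k) hPK) hfix
    rw [h1, trunc_zero, trunc_sg] at h2
    have h3 : sg k (K ⊓ Cen P) * e = 0 := by
      rw [← htr, ← mul_assoc, ← h2, zero_mul]
    have hle := inf_cen_le_KK π hCX hn hK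
    have h4 : KerOn (K ⊓ Cen P) e :=
      hker.mono hle (card_ne_zero_of_primes (p := p) hpπ (KK_primes π P))
    refine h4.ne_zero (card_ne_zero_of_primes (p := p) hpπ ?_) he h3
    intro q hq hd
    exact hK q hq (hd.trans (Subgroup.card_dvd_of_le inf_le_left))

/-- the kernel property of a pair -/
def PK (π : Set ℕ) (x : APair k G) : Prop := KerOn (KK π x.1) x.2

theorem PK.descent {π : Set ℕ} (hpπ : p ∈ π) {x y : APair k G} (h : ANormal p x y)
    (hy : PK π y) : PK π x := by
  obtain ⟨hx, hyp, hle, hnorm, hfix, htr⟩ := h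
  exact kerOn_of_trunc hpπ hx.2 (KK_le π x.1) (cen_le_normalizer_KK π x.1) (KK_primes π x.1)
    hyp.1 (cen_anti hle) (hnorm.trans (normalizer_le_normalizer_KK π x.1)) hfix htr
    hyp.2.ne_zero hy

theorem PK.of_ALE {π : Set ℕ} (hpπ : p ∈ π) {x y : APair k G} (h : ALE p x y)
    (hy : PK π y) : PK π x := by
  induction h using Relation.ReflTransGen.head_induction_on with
  | refl => exact hy
  | head hac _ ih => exact PK.descent hpπ hac ih

theorem PK.cjP {π : Set ℕ} {x : APair k G} (h : PK π x) (g : G) : PK π (cjP g x) := by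
  unfold PK Helper77.cjP
  simp only
  rw [KK_map_conj]
  exact KerOn.cj h g

theorem PK.ascent {π : Set ℕ} (hpπ : p ∈ π) {x y : APair k G} (h : ANormal p x y)
    (hx : PK π x) (hc : HC π x.1) : PK π y ∧ HC π y.1 := by
  obtain ⟨hxp, hyp, hle, hnorm, hfix, htr⟩ := h
  have hle1 : KK π x.1 ⊓ Cen y.1 ≤ KK π y.1 :=
    inf_cen_le_KK π (cen_anti hle) (cen_le_normalizer_KK π x.1) (KK_primes π x.1)
  have hc' : HC π y.1 := by
    intro g hg hord
    exact hle1 ⟨hc g (cen_anti hle hg) hord, hg⟩
  refine ⟨?_, hc'⟩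
  have heq : KK π y.1 = KK π x.1 ⊓ Cen y.1 := by
    apply le_antisymm _ hle1
    intro g hg
    refine ⟨hc g (cen_anti hle (KK_le π y.1 hg)) ?_, KK_le π y.1 hg⟩
    intro q hq hd
    exact KK_primes π y.1 q hq (hd.trans (Subgroup.orderOf_dvd_natCard _ hg))
  have h2 := trunc_centralizer_mul p y.1 hyp.1
    (fixedBy_sg (k := k) (hnorm.trans (normalizer_le_normalizer_KK π x.1))) hfix
  have hx' : sg k (KK π x.1) * x.2 = (Nat.card (KK π x.1) : k) • x.2 := hx
  rw [hx', trunc_smul, trunc_sg, ← heq] at h2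
  have h3 : sg k (KK π y.1) * y.2 = (Nat.card (KK π x.1) : k) • y.2 := by
    conv_lhs => rw [← htr]
    rw [← mul_assoc, ← h2, smul_mul_assoc, htr]
  rcases kerOn_or hyp.2 (KK_le π y.1) (cen_le_normalizer_KK π y.1)
    (card_ne_zero_of_primes (p := p) hpπ (KK_primes π y.1)) with h4 | h4
  · exact h4
  · exfalso
    rw [h4] at h3
    exact smul_ne_zero (card_ne_zero_of_primes (p := p) hpπ (KK_primes π x.1)) hyp.2.ne_zero
      h3.symm

theorem PK.up_ALE {π : Set ℕ} (hpπ : p ∈ π) {x y : APair k G} (h : ALE p x y)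
    (hx : PK π x) (hc : HC π x.1) : PK π y ∧ HC π y.1 := by
  induction h with
  | refl => exact ⟨hx, hc⟩
  | tail _ h2 ih => exact PK.ascent hpπ h2 ih.1 ih.2

end chain

end Cfsg.Agent.Lib.Helper97
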