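import Mathlib
import Cfsg.Agent.Lib.Helper97.KerIdem
import Cfsg.Agent.Lib.Helper35.BlockNormal2

/-!
# Kernels of blocks and block idempotents (helper97)
-/

set_option autoImplicit false
set_option linter.unusedSectionVars false

namespace Cfsg.Agent.Lib.Helper97

open MonoidAlgebra Cfsg Cfsg.Agent.Lib.Helper77 Cfsg.Agent.Lib.Helper22 Cfsg.Agent.Lib.Helper78

universe u

variable {G : Type u} [Group G] [Finite G] (M : Ideal AlgInt) [hP : M.IsPrime]
variable {p : ℕ} [Fact p.Prime]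

open Classical in
/-- the averaging coefficient function of a subgroup -/
noncomputable def avgK (K : Subgroup G) : G → ℂ := fun g => if g ∈ K then (Nat.card K : ℂ)⁻¹ else 0

theorem trunc_redFn_avgK {H K : Subgroup G} (hKH : K ≤ H) :
    trunc H (redFn M (avgK K)) = red M ((Nat.card K : ℂ)⁻¹) • sg (ResF M) K := by
  classical
  apply ma_ext; intro x
  rw [coeff_trunc, coeff_smul, Finsupp.smul_apply, coeff_sg]
  simp only [redFn, coeff_ofFun, avgK]
  by_cases hx : x ∈ K
  · simp [hx, hKH hx]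
  · simp [hx, red_zero]

theorem red_inv_card_mul (hM : IsPModular p M) {K : Subgroup G} (hK : ¬ p ∣ Nat.card K) :
    red M ((Nat.card K : ℂ)⁻¹) * (Nat.card K : ResF M) = 1 := by
  rw [← red_natCast, ← red_mul (memLocalRing_inv_natCast hM hK) (memLocalRing_natCast hP _),
    inv_mul_cancel₀ (by exact_mod_cast Nat.card_pos.ne'), red_one]

/-- **Dictionary**: a normal `p'`-subgroup `K` of `H` lies in the kernel of the block `b` of `H` iff
the sum of `K` acts on the block idempotent as `|K|`. -/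
theorem kerOn_idem_iff (hM : IsPModular p M) {H K : Subgroup G} {b : Set (IrrCharacter H)}
    (hb : IsPBlock M b) (hKH : K ≤ H) (hn : H ≤ Subgroup.normalizer (K : Set G))
    (hK : ¬ p ∣ Nat.card K) :
    KerOn K (idem M H b) ↔ ∀ ξ ∈ b, ∀ h : H, (h : G) ∈ K → (ξ : H → ℂ) h = (ξ : H → ℂ) 1 := by
  classical
  have := Fintype.ofFinite H
  have hc := red_inv_card_mul M hM hK
  set c := red M ((Nat.card K : ℂ)⁻¹) with hcdef
  have hc0 : c ≠ 0 := left_ne_zero_of_mul_eq_one hc
  have htr := trunc_redFn_avgK M hKH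
  have hcrit := crit M hb (avgK K)
    (fun x _ => by
      unfold avgK
      split_ifs
      · exact memLocalRing_inv_natCast hM hK
      · exact memLocalRing_zero hP)
    (fun c hc x _ => by
      unfold avgK
      have := Subgroup.mem_normalizer_iff.1 (hn hc) x
      simp only [this])
    (by
      rw [htr, smul_mul_smul_comm, sg_mul_sg le_rfl, smul_smul, mul_assoc, hc, mul_one])
  rw [htr] at hcrit
  have h1 : KerOn K (idem M H b) ↔ (c • sg (ResF M) K) * idem M H b = idem M H b := by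
    unfold KerOn
    rw [smul_mul_assoc]
    constructor
    · intro h
      rw [h, smul_smul, hc, one_smul]
    · intro h
      have h2 := congrArg (fun a => (Nat.card K : ResF M) • a) h
      simp only [smul_smul] at h2
      rwa [mul_comm, hc, one_smul] at h2
  rw [h1, hcrit]
  have hN : (K.subgroupOf H).Normal := Subgroup.normal_subgroupOf_of_le_normalizer hn
  have hcard : Nat.card (K.subgroupOf H) = Nat.card K :=
    Nat.card_congr (Subgroup.subgroupOfEquivOfLe hKH).toEquiv
  have hom : ∀ ξ : IrrCharacter H, (∑ᶠ x : H, avgK K x * (ξ : H → ℂ) x / (ξ : H → ℂ) 1)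
      = classInner (fun n : K.subgroupOf H => (ξ : H → ℂ) n) (fun _ => 1) / (ξ : H → ℂ) 1 := by
    intro ξ
    rw [← Helper35.omega_avgFun, finsum_eq_sum_of_fintype, omega, Finset.sum_div]
    apply Finset.sum_congr rfl
    intro x _
    unfold avgK Helper35.avgFun
    rw [hcard]
    rfl
  apply forall₂_congr
  intro ξ hξ
  rw [hom]
  constructor
  · intro h2 h hh
    have h3 : classInner (fun n : K.subgroupOf H => (ξ : H → ℂ) n) (fun _ => 1) ≠ 0 := by
      intro h0
      rw [h0, zero_div, zero_sub] at h2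
      have := MemLocalIdeal.neg h2
      rw [neg_neg] at this
      exact not_memLocalIdeal_one hP this
    exact (Helper15.restrict_eq_of_inner_one_ne_zero (K.subgroupOf H) ξ.2 h3).2 ⟨h, hh⟩
  · intro h2
    have h3 : classInner (fun n : K.subgroupOf H => (ξ : H → ℂ) n) (fun _ => 1)
        = (ξ : H → ℂ) 1 := by
      unfold classInner
      have : ∀ n : K.subgroupOf H, (ξ : H → ℂ) n = (ξ : H → ℂ) 1 := fun n => h2 n n.2
      simp only [this, map_one, mul_one, Finset.sum_const, Finset.card_univ, nsmul_eq_mul]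
      rw [← Nat.card_eq_fintype_card, ← mul_assoc, inv_mul_cancel₀, one_mul]
      exact_mod_cast Nat.card_pos.ne'
    rw [h3, div_self (irr_one_ne_zero ξ), sub_self]
    exact memLocalIdeal_zero hP

/-- If `b^G = B` then `(s_H(e_B) - 1) e_b` is nilpotent. -/
theorem exists_pow_trunc_sub_eq_zero {H : Subgroup G} {b : Set (IrrCharacter H)}
    {B : Set (IrrCharacter G)} (hind : IsInducedBlock M H b B) :
    ∃ n : ℕ, (trunc H (ebar M B) * idem M H b - idem M H b) ^ n = 0 := by
  classical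
  have := Fintype.ofFinite G
  have := Fintype.ofFinite H
  obtain ⟨hb, hB, hcc⟩ := hind
  set z : MonoidAlgebra (Rloc M) H := liftR M (fun h : H => blockCoeff B (h : G)) with hz
  have hzfix : FixedBy ⊤ z :=
    fixedBy_liftR M (fun g h => blockCoeff_isClassFunction B (g : G) (h : G))
  have hcf : cfun M z = fun h : H => blockCoeff B (h : G) :=
    cfun_liftR M (fun h => memLocalRing_blockCoeff hP hB _)
  have hpi : emb H (piF M z) = trunc H (ebar M B) := by
    rw [piF_liftR, ← emb_res]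
    rfl
  obtain ⟨n, hn⟩ := piF_nilpotent M ((hzfix.mul (fixedBy_eR M b)).sub (fixedBy_eR M b)) (by
    intro ξ
    rw [cfun_sub, omega_sub, omega_cfun_mul M ξ _ (fixedBy_eR M b), omega_eR M hb]
    by_cases hξ : ξ ∈ b
    · rw [if_pos hξ, mul_one, hcf]
      obtain ⟨χ, hχ⟩ := IsPBlock.nonempty hP hB
      have h1 : (1 : ℂ) = omega (χ : G → ℂ) (blockCoeff B) := by
        rw [omega_blockCoeff, if_pos hχ]
      rw [Helper35.omega_restrict_eq_sum H _ (blockCoeff_isClassFunction B), h1,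
        omega_eq_sum_conjClasses (irr_isClassFunction χ) (blockCoeff_isClassFunction B),
        ← Finset.sum_sub_distrib]
      apply MemLocalIdeal.sum hP
      intro C _
      rw [← mul_sub]
      exact MemLocalIdeal.mul_left hP (memLocalRing_blockCoeff hP hB _) (hcc ξ hξ χ hχ _)
    · rw [if_neg hξ, mul_zero, sub_zero]
      exact memLocalIdeal_zero hP)
  refine ⟨n, ?_⟩
  have h2 := congrArg (emb H) hn
  rw [map_pow, map_zero, map_sub, map_mul, map_sub, map_mul, piF_eR, hpi, ← idem_eq_emb] at h2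
  exact h2

theorem fixedBy_pow {k : Type*} [CommRing k] {P : Subgroup G} {a : MonoidAlgebra k G}
    (ha : FixedBy P a) (n : ℕ) : FixedBy P (a ^ n) := by
  induction n with
  | zero => rw [pow_zero]; exact fixedBy_one P
  | succ n ih => rw [pow_succ]; exact ih.mul ha

theorem trunc_centralizer_pow {k : Type*} [CommRing k] [CharP k p] {P : Subgroup G}
    (hPp : IsPGroup p P) {a : MonoidAlgebra k G} (ha : FixedBy P a) (n : ℕ) :
    trunc (Cen P) (a ^ n) = (trunc (Cen P) a) ^ n := by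
  induction n with
  | zero => rw [pow_zero, pow_zero, trunc_one]
  | succ n ih =>
    rw [pow_succ, pow_succ, ← ih]
    exact trunc_centralizer_mul p P hPp (fixedBy_pow ha n) ha

/-- If `b^G = B`, `Q ≤ H` a `p`-subgroup with `C_G(Q) ≤ H`, then `Br_Q(e_B) Br_Q(e_b) = Br_Q(e_b)`. -/
theorem trunc_mul_trunc_idem_of_induced (hM : IsPModular p M) {H Q : Subgroup G}
    (hQp : IsPGroup p Q) (hQH : Q ≤ H) (hCH : Cen Q ≤ H) {b : Set (IrrCharacter H)}
    {B : Set (IrrCharacter G)} (hind : IsInducedBlock M H b B) :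
    trunc (Cen Q) (ebar M B) * trunc (Cen Q) (idem M H b) = trunc (Cen Q) (idem M H b) := by
  have := resF_charP hM
  have := Fintype.ofFinite G
  obtain ⟨n, hn⟩ := exists_pow_trunc_sub_eq_zero M hind
  have hb := hind.1
  have hB := hind.2.1
  have hfE : FixedBy Q (ebar M B) := (fixedBy_ebar M B).mono le_top
  have hfE' : FixedBy Q (trunc H (ebar M B)) :=
    FixedBy.trunc (hQH.trans Subgroup.le_normalizer) hfE
  have hfb : FixedBy Q (idem M H b) := (isPrimIdem_idem M hb).mem.2.mono hQH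
  set i := trunc (Cen Q) (ebar M B) with hi
  set j := trunc (Cen Q) (idem M H b) with hj
  have hii : i * i = i := by
    rw [hi, ← trunc_centralizer_mul p Q hQp hfE hfE, ebar_idem M hB]
  have hjj : j * j = j := by
    rw [hj, ← trunc_centralizer_mul p Q hQp hfb hfb, (isPrimIdem_idem M hb).idem]
  have hij : i * j = j * i := by
    apply FixedBy.commute (H := Cen Q) _ (suppIn_trunc _ _)
    exact FixedBy.trunc Subgroup.le_normalizer ((fixedBy_ebar M B).mono le_top)
  have h1 := trunc_centralizer_pow (p := p) hQp ((hfE'.mul hfb).sub hfb) n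
  rw [hn, trunc_zero, trunc_sub, trunc_centralizer_mul p Q hQp hfE' hfb,
    trunc_trunc_of_le hCH] at h1
  have h2 : (j - i * j) ^ n = 0 := by
    rw [← neg_sub, neg_pow, ← h1, mul_zero]
  have h3 : (j - i * j) * (j - i * j) = j - i * j := by
    have e1 : i * j * (i * j) = i * j := by
      calc i * j * (i * j) = i * (j * i) * j := by simp only [mul_assoc]
        _ = i * (i * j) * j := by rw [hij]
        _ = (i * i) * (j * j) := by simp only [mul_assoc]
        _ = i * j := by rw [hii, hjj]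
    have e2 : j * (i * j) = i * j := by
      rw [← mul_assoc, ← hij, mul_assoc, hjj]
    have e3 : i * j * j = i * j := by rw [mul_assoc, hjj]
    rw [sub_mul, mul_sub, mul_sub, hjj, e1, e2, e3]
    abel
  have h4 := eq_zero_of_idem_of_nilpotent h3 h2 (fun h1 => by
    rw [← one_mul (j - i * j), h1, zero_mul])
  exact (sub_eq_zero.1 h4).symm

/-- A `B`-Brauer pair at `Q` attached to a block `b` of `H ⊇ Q C_G(Q)` with `b^G = B` and
`Br_Q(e_b) ≠ 0`. -/
theorem exists_pair_of_induced (hM : IsPModular p M) {H Q : Subgroup G}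
    (hQp : IsPGroup p Q) (hQH : Q ≤ H) (hCH : Cen Q ≤ H) {b : Set (IrrCharacter H)}
    {B : Set (IrrCharacter G)} (hind : IsInducedBlock M H b B)
    (hne : trunc (Cen Q) (idem M H b) ≠ 0) :
    ∃ e : MonoidAlgebra (ResF M) G, IsAPair p ((Q, e) : APair (ResF M) G) ∧
      trunc (Cen Q) (idem M H b) * e = e ∧
      IsABlockOf (ebar M B) ((Q, e) : APair (ResF M) G) := by
  have := resF_charP hM
  have := Fintype.ofFinite G
  have hdec := hasBlockDecomp (G := G) M
  have hb := hind.1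
  have hB := hind.2.1
  have hfb : FixedBy Q (idem M H b) := (isPrimIdem_idem M hb).mem.2.mono hQH
  have hmem : trunc (Cen Q) (idem M H b) ∈ zsub (ResF M) (Cen Q) :=
    trunc_mem_zsub hCH (isPrimIdem_idem M hb).mem
  have hjj : trunc (Cen Q) (idem M H b) * trunc (Cen Q) (idem M H b)
      = trunc (Cen Q) (idem M H b) := by
    rw [← trunc_centralizer_mul p Q hQp hfb hfb, (isPrimIdem_idem M hb).idem]
  obtain ⟨e, he, hje⟩ := exists_prim_of_idem_ne_zero hdec hmem hjj hne
  refine ⟨e, ⟨hQp, he⟩, hje, isPrimIdem_ebar M hB, ?_⟩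
  show trunc (Cen Q) (ebar M B) * e = e
  conv_lhs => rw [← hje]
  rw [← mul_assoc, trunc_mul_trunc_idem_of_induced M hM hQp hQH hCH hind, hje]

/-- A `B`-pair on a defect group of `B` is maximal. -/
theorem isAMax_of_isDefectGroup (hM : IsPModular p M) {B : Set (IrrCharacter G)}
    (hB : IsPBlock M B) {D : Subgroup G} (hD : IsDefectGroup p M B D)
    {e : MonoidAlgebra (ResF M) G} (hx : IsAPair p ((D, e) : APair (ResF M) G))
    (hxb : IsABlockOf (ebar M B) ((D, e) : APair (ResF M) G)) :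
    IsAMax p ((D, e) : APair (ResF M) G) := by
  have := resF_charP hM
  have hdec := hasBlockDecomp (G := G) M
  refine ⟨hx, fun z hz => ?_⟩
  have hzp := hz.isAPair_right hx
  have hzb : IsABlockOf (ebar M B) z := (isABlockOf_iff_of_le hdec hz).1 hxb
  have hne : trunc (Cen z.1) (ebar M B) ≠ 0 := by
    intro h0
    apply hzp.2.ne_zero
    rw [← hzb.2, h0, zero_mul]
  obtain ⟨x, hx'⟩ := (trunc_ebar_ne_zero_iff M hM hB hD hzp.1).1 hne
  symm
  apply Subgroup.eq_of_le_of_card_ge hz.le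
  calc Nat.card z.1 ≤ Nat.card (D.map (MulAut.conj x).toMonoidHom) := Subgroup.card_le_of_le hx'
    _ = Nat.card D := card_map_conj x D

/-- The maximal `B`-pair attached to the Brauer correspondent. -/
theorem exists_top_pair (hM : IsPModular p M) {B : Set (IrrCharacter G)} {D : Subgroup G}
    (hD : IsDefectGroup p M B D)
    {B₁ : Set (IrrCharacter (Subgroup.normalizer (D : Set G)))}
    (hind : IsInducedBlock M (Subgroup.normalizer (D : Set G)) B₁ B) :
    ∃ e : MonoidAlgebra (ResF M) G, IsAMax p ((D, e) : APair (ResF M) G) ∧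
      idem M (Subgroup.normalizer (D : Set G)) B₁ * e = e ∧
      IsABlockOf (ebar M B) ((D, e) : APair (ResF M) G) := by
  have := resF_charP hM
  have hDp := Helper16.IsDefectGroup.isPGroup hD
  have hprim := isPrimIdem_idem M hind.1
  have hsupp : SuppIn (Cen D) (idem M (Subgroup.normalizer (D : Set G)) B₁) :=
    suppIn_cen_of_idem (p := p) Subgroup.le_normalizer le_rfl hDp hprim.mem hprim.idem
  have htr := trunc_of_suppIn hsupp
  obtain ⟨e, he, hje, hb⟩ := exists_pair_of_induced M hM hDp Subgroup.le_normalizer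
    (Subgroup.centralizer_le_normalizer _) hind (by rw [htr]; exact hprim.ne_zero)
  rw [htr] at hje
  exact ⟨e, isAMax_of_isDefectGroup M hM hind.2.1 hD he hb, hje, hb⟩

theorem not_dvd_of_primes {π : Set ℕ} (hpπ : p ∈ π) {K : Subgroup G}
    (hK : ∀ q : ℕ, q.Prime → q ∣ Nat.card K → q ∈ {q | q ∉ π}) : ¬ p ∣ Nat.card K :=
  fun h => hK p Fact.out h hpπ

/-- the kernel condition on a block of a subgroup, in terms of `piCoreOf` -/
def BK (π : Set ℕ) (H : Subgroup G) (b : Set (IrrCharacter H)) : Prop :=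
  ∀ ξ ∈ b, ∀ h : H, (h : G) ∈ piCoreOf {q | q ∉ π} H → (ξ : H → ℂ) h = (ξ : H → ℂ) 1

theorem bK_iff (π : Set ℕ) (H : Subgroup G) (b : Set (IrrCharacter H)) :
    BK π H b ↔ ∀ x : H, x ∈ piCore {q | q ∉ π} H → x ∈ blockKer b := by
  constructor
  · intro h x hx ξ hξ
    exact h ξ hξ x ⟨x, hx, rfl⟩
  · intro h ξ hξ x hx
    obtain ⟨y, hy, hyx⟩ := hx
    have : y = x := Subtype.ext hyx
    rw [this] at hy
    exact h x hy ξ hξ

theorem bK_iff_kerOn (hM : IsPModular p M) {π : Set ℕ} (hpπ : p ∈ π) {H : Subgroup G}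
    {b : Set (IrrCharacter H)} (hb : IsPBlock M b) :
    BK π H b ↔ KerOn (piCoreOf {q | q ∉ π} H) (idem M H b) :=
  (kerOn_idem_iff M hM hb (piCoreOf_le _ H) (le_normalizer_piCoreOf _ H)
    (not_dvd_of_primes hpπ (piCoreOf_primes _ H))).symm

/-- the top pair inherits the kernel condition from the Brauer correspondent -/
theorem pK_top (hM : IsPModular p M) {π : Set ℕ} (hpπ : p ∈ π) {D : Subgroup G}
    {B₁ : Set (IrrCharacter (Subgroup.normalizer (D : Set G)))} (hB₁ : IsPBlock M B₁)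
    (hker : BK π (Subgroup.normalizer (D : Set G)) B₁) {e : MonoidAlgebra (ResF M) G}
    (he : idem M (Subgroup.normalizer (D : Set G)) B₁ * e = e) :
    PK π ((D, e) : APair (ResF M) G) := by
  have := resF_charP hM
  have h1 := (bK_iff_kerOn M hM hpπ hB₁).1 hker
  have hle : KK π D ≤ piCoreOf {q | q ∉ π} (Subgroup.normalizer (D : Set G)) :=
    le_piCoreOf _ ((KK_le π D).trans (Subgroup.centralizer_le_normalizer _))
      (normalizer_le_normalizer_KK π D) (KK_primes π D)
  have h2 := (h1.mono hle (card_ne_zero_of_primes (p := p) hpπ (piCoreOf_primes _ _))).mul_right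
    (e' := e)
  rw [he] at h2
  exact h2

/-- **S4734 core.** -/
theorem bK_descends (hM : IsPModular p M) {π : Set ℕ} (hpπ : p ∈ π) {B : Set (IrrCharacter G)}
    {D : Subgroup G} (hD : IsDefectGroup p M B D)
    {B₁ : Set (IrrCharacter (Subgroup.normalizer (D : Set G)))}
    (hind : IsInducedBlock M (Subgroup.normalizer (D : Set G)) B₁ B)
    (hker : BK π (Subgroup.normalizer (D : Set G)) B₁)
    {G₀ : Subgroup G} {B₀ : Set (IrrCharacter G₀)} (hB₀ : IsInducedBlock M G₀ B₀ B)
    {D₀ : Subgroup G₀} (hD₀ : IsDefectGroup p M B₀ D₀)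
    (hC : Cen (D₀.map G₀.subtype) ≤ G₀) : BK π G₀ B₀ := by
  have := resF_charP hM
  have := Fintype.ofFinite G
  have hB := hind.2.1
  obtain ⟨e, hmax, hje, hb⟩ := exists_top_pair M hM hD hind
  have hpk := pK_top M hM hpπ hind.1 hker hje
  set Q := D₀.map G₀.subtype with hQ
  have hQp : IsPGroup p Q := (Helper16.IsDefectGroup.isPGroup hD₀).map _
  have hQG : Q ≤ G₀ := Subgroup.map_subtype_le _
  have hne : trunc (Cen Q) (idem M G₀ B₀) ≠ 0 := by
    rw [trunc_idem_ne_zero_iff M hM hB₀.1 hD₀ hQG hQp]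
    exact ⟨1, G₀.one_mem, by
      intro q hq
      rw [mem_map_conj_iff, inv_one, one_mul, mul_one]
      exact hq⟩
  obtain ⟨e₀, he₀, hje₀, hb₀⟩ := exists_pair_of_induced M hM hQp hQG hC hB₀ hne
  obtain ⟨g, hg⟩ := exists_cjP_ALE M hM hB hmax hb he₀ hb₀
  have h1 := (PK.of_ALE hpπ hg hpk).cjP g⁻¹
  rw [cjP_cjP, inv_mul_cancel, cjP_one] at h1
  rw [bK_iff_kerOn M hM hpπ hB₀.1]
  exact kerOn_of_trunc hpπ (isPrimIdem_idem M hB₀.1) (piCoreOf_le _ G₀)
    (le_normalizer_piCoreOf _ G₀) (piCoreOf_primes _ G₀) hQp hC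
    (hQG.trans (le_normalizer_piCoreOf _ G₀)) ((isPrimIdem_idem M hB₀.1).mem.2.mono hQG)
    hje₀ he₀.2.ne_zero h1

theorem le_cen_of_normalize {A D : Subgroup G} (h1 : A ≤ Subgroup.normalizer (D : Set G))
    (h2 : D ≤ Subgroup.normalizer (A : Set G)) (h3 : A ⊓ D = ⊥) : A ≤ Cen D := by
  intro a ha
  rw [Subgroup.mem_centralizer_iff]
  intro d hd
  have hd' : d ∈ D := hd
  have e1 : a * d * a⁻¹ * d⁻¹ ∈ D :=
    D.mul_mem ((Subgroup.mem_normalizer_iff.1 (h1 ha) d).1 hd') (D.inv_mem hd')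
  have e2 : a * d * a⁻¹ * d⁻¹ ∈ A := by
    have := A.mul_mem ha ((Subgroup.mem_normalizer_iff.1 (h2 hd') a⁻¹).1 (A.inv_mem ha))
    simpa [mul_assoc] using this
  have e3 : a * d * a⁻¹ * d⁻¹ ∈ A ⊓ D := ⟨e2, e1⟩
  rw [h3, Subgroup.mem_bot] at e3
  calc d * a = (a * d * a⁻¹ * d⁻¹)⁻¹ * (a * d) := by group
    _ = a * d := by rw [e3, inv_one, one_mul]

/-- **S4728 core.** -/
theorem bK_ascends (hM : IsPModular p M) {π : Set ℕ} (hpπ : p ∈ π) {B : Set (IrrCharacter G)}
    {D : Subgroup G} (hD : IsDefectGroup p M B D)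
    {B₁ : Set (IrrCharacter (Subgroup.normalizer (D : Set G)))}
    (hind : IsInducedBlock M (Subgroup.normalizer (D : Set G)) B₁ B)
    {D₀ : Subgroup G} (hD₀ : IsPGroup p D₀) {H₀ : Subgroup G} (hDH : D₀ ≤ H₀) (hCH : Cen D₀ ≤ H₀)
    (hHN : H₀ ≤ Subgroup.normalizer (D₀ : Set G))
    {b : Set (IrrCharacter H₀)} (hb : IsInducedBlock M H₀ b B) (hc : HC π D₀)
    (hkerb : ∀ ξ ∈ b, ∀ h : H₀, (h : G) ∈ KK π D₀ → (ξ : H₀ → ℂ) h = (ξ : H₀ → ℂ) 1) :
    BK π (Subgroup.normalizer (D : Set G)) B₁ := by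
  have := resF_charP hM
  have := Fintype.ofFinite G
  have hB := hind.2.1
  have hDp := Helper16.IsDefectGroup.isPGroup hD
  obtain ⟨e, hmax, hje, hbe⟩ := exists_top_pair M hM hD hind
  have hprim := isPrimIdem_idem M hb.1
  have hsupp : SuppIn (Cen D₀) (idem M H₀ b) :=
    suppIn_cen_of_idem (p := p) hDH hHN hD₀ hprim.mem hprim.idem
  have htr := trunc_of_suppIn hsupp
  obtain ⟨e₀, he₀, hje₀, hb₀⟩ := exists_pair_of_induced M hM hD₀ hDH hCH hb
    (by rw [htr]; exact hprim.ne_zero)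
  rw [htr] at hje₀
  have hpk₀ : PK π ((D₀, e₀) : APair (ResF M) G) := by
    have h1 := (kerOn_idem_iff M hM hb.1 ((KK_le π D₀).trans hCH)
      (hHN.trans (normalizer_le_normalizer_KK π D₀))
      (not_dvd_of_primes hpπ (KK_primes π D₀))).2 hkerb
    have h2 := h1.mul_right (e' := e₀)
    rw [hje₀] at h2
    exact h2
  obtain ⟨g, hg⟩ := exists_cjP_ALE M hM hB hmax hbe he₀ hb₀
  have hpk : PK π ((D, e) : APair (ResF M) G) :=
    (PK.up_ALE hpπ hg (hpk₀.cjP g) (hc.map_conj g)).1
  rw [bK_iff_kerOn M hM hpπ hind.1]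
  set K₁ := piCoreOf {q | q ∉ π} (Subgroup.normalizer (D : Set G)) with hK₁
  have hK₁p : ∀ q : ℕ, q.Prime → q ∣ Nat.card K₁ → q ∉ π := piCoreOf_primes _ _
  have hK₁N : K₁ ≤ Subgroup.normalizer (D : Set G) := piCoreOf_le _ _
  have hNK₁ : Subgroup.normalizer (D : Set G) ≤ Subgroup.normalizer (K₁ : Set G) :=
    le_normalizer_piCoreOf _ _
  have hdisj : K₁ ⊓ D = ⊥ := by
    apply Disjoint.eq_bot
    apply Subgroup.disjoint_of_coprime_natCard
    obtain ⟨n, hn⟩ := IsPGroup.iff_card.1 hDp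
    rw [hn]
    apply Nat.Coprime.pow_right
    rw [Nat.coprime_comm, (Fact.out : p.Prime).coprime_iff_not_dvd]
    exact fun h => hK₁p p Fact.out h hpπ
  have hK₁C : K₁ ≤ Cen D :=
    le_cen_of_normalize hK₁N (Subgroup.le_normalizer.trans hNK₁) hdisj
  have hK₁K : K₁ ≤ KK π D :=
    le_KK π hK₁C ((Subgroup.centralizer_le_normalizer _).trans hNK₁) hK₁p
  have h3 : KerOn K₁ e :=
    KerOn.mono hpk hK₁K (card_ne_zero_of_primes (p := p) hpπ (KK_primes π D))
  rcases kerOn_or (isPrimIdem_idem M hind.1) hK₁N hNK₁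
    (card_ne_zero_of_primes (p := p) hpπ hK₁p) with h4 | h4
  · exact h4
  · exfalso
    apply h3.ne_zero (card_ne_zero_of_primes (p := p) hpπ hK₁p) hmax.1.2.ne_zero
    rw [← hje, ← mul_assoc, h4, zero_mul]

end Cfsg.Agent.Lib.Helper97
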