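import Cfsg.Agent.Lib.Helper97.PrimBasic
set_option autoImplicit false

namespace Cfsg.Agent.Lib.Helper97
open Matrix Module

section Lin2
variable {F : Type*} [Field F] {n : ℕ}

/-- commutative ring structure on a commutative subalgebra -/
@[reducible] def commRingOfComm {E : Type*} [Ring E] [Algebra F E] (K : Subalgebra F E)
    (hK : ∀ x ∈ K, ∀ y ∈ K, x * y = y * x) : CommRing K :=
  { (inferInstance : Ring K) with mul_comm := fun x y => Subtype.ext (hK x x.2 y y.2) }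

lemma L_mul_inv (g : GL (Fin n) F) : L g * L g⁻¹ = 1 := by
  show L g ∘ₗ L g⁻¹ = LinearMap.id
  rw [← L_mul, mul_inv_cancel, L_one]

lemma L_inv_mul (g : GL (Fin n) F) : L g⁻¹ * L g = 1 := by
  show L g⁻¹ ∘ₗ L g = LinearMap.id
  rw [← L_mul, inv_mul_cancel, L_one]

/-- conjugation by `g` on an invariant subalgebra -/
def cj (K : Subalgebra F (Module.End F (Fin n → F))) (g : GL (Fin n) F)
    (hg : ∀ k ∈ K, L g * k * L g⁻¹ ∈ K) : K →+* K where
  toFun k := ⟨L g * k.1 * L g⁻¹, hg k.1 k.2⟩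
  map_one' := by
    apply Subtype.ext
    show L g * 1 * L g⁻¹ = 1
    rw [mul_one, L_mul_inv]
  map_mul' x y := by
    apply Subtype.ext
    show L g * (x.1 * y.1) * L g⁻¹ = (L g * x.1 * L g⁻¹) * (L g * y.1 * L g⁻¹)
    calc L g * (x.1 * y.1) * L g⁻¹ = L g * x.1 * 1 * y.1 * L g⁻¹ := by simp [mul_assoc]
      _ = _ := by rw [← L_inv_mul g]; simp [mul_assoc]
  map_zero' := by
    apply Subtype.ext
    show L g * 0 * L g⁻¹ = 0
    simp
  map_add' x y := by
    apply Subtype.ext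
    show L g * (x.1 + y.1) * L g⁻¹ = (L g * x.1 * L g⁻¹) + (L g * y.1 * L g⁻¹)
    rw [mul_add, add_mul]

theorem injective_of_mem_comm_subalgebra [Finite F] (G : Subgroup (GL (Fin n) F))
    (hirr : Cfsg.Geo.ActsIrreducibly (Cfsg.Geo.matrixSet G))
    (hprim : ∀ (m t : ℕ) (D : Fin t → Submodule F (Fin n → F)), 2 ≤ t → Cfsg.Geo.IsMDecomposition m D →
      ¬ G ≤ Cfsg.Geo.decompositionStabilizer D)
    (K : Subalgebra F (Module.End F (Fin n → F)))
    (hK : ∀ x ∈ K, ∀ y ∈ K, x * y = y * x)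
    (hGK : ∀ g ∈ G, ∀ k ∈ K, L g * k * L g⁻¹ ∈ K)
    (k : Module.End F (Fin n → F)) (hk : k ∈ K) (hk0 : k ≠ 0) : Function.Injective k := by
  classical
  rcases subsingleton_or_nontrivial (Fin n → F) with hsub | hnt
  · exact Function.injective_of_subsingleton _
  let _ : CommRing K := commRingOfComm K hK
  have hfinE : Finite (Module.End F (Fin n → F)) := Module.finite_of_finite F
  have hfinK : Finite K := Subtype.finite
  have htower : IsScalarTower F K (Fin n → F) := ⟨fun c k v => rfl⟩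
  obtain ⟨𝔪, h𝔪⟩ := associatedPrimes.nonempty K (Fin n → F)
  obtain ⟨hprime, x₀, hx₀⟩ := isAssociatedPrime_iff.1 h𝔪
  have hmax : 𝔪.IsMaximal := IsArtinianRing.isMaximal_of_isPrime 𝔪
  -- torsion subspaces
  let T : Ideal K → Submodule F (Fin n → F) := fun I => (Submodule.torsionBySet K (Fin n → F) (I : Set K)).restrictScalars F
  have hT : ∀ (I : Ideal K) (v : Fin n → F), v ∈ T I ↔ ∀ k ∈ I, k.1 v = 0 := by
    intro I v
    show v ∈ Submodule.torsionBySet K (Fin n → F) (I : Set K) ↔ _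
    rw [Submodule.mem_torsionBySet_iff]
    constructor
    · intro h k hk
      exact h ⟨k, hk⟩
    · intro h k
      exact h k.1 k.2
  set W := T 𝔪 with hWdef
  have hx₀W : x₀ ∈ W := by
    rw [hT]
    intro k hk
    rw [hx₀] at hk
    have := Submodule.mem_colon_singleton.1 hk
    exact (Submodule.mem_bot _).1 this
  have hx₀ne : x₀ ≠ 0 := by
    intro h
    apply hprime.ne_top
    rw [Ideal.eq_top_iff_one, hx₀, Submodule.mem_colon_singleton, h, smul_zero]
    exact Submodule.zero_mem _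
  have hWne : W ≠ ⊥ := by
    intro h
    rw [h] at hx₀W
    exact hx₀ne (by simpa using hx₀W)
  have hcj : ∀ (g : GL (Fin n) F) (hg : g ∈ G) (k : K),
      cj K g⁻¹ (hGK g⁻¹ (G.inv_mem hg)) (cj K g (hGK g hg) k) = k := by
    intro g hg k
    apply Subtype.ext
    show L g⁻¹ * (L g * k.1 * L g⁻¹) * L g⁻¹⁻¹ = k.1
    rw [inv_inv]
    calc L g⁻¹ * (L g * k.1 * L g⁻¹) * L g = (L g⁻¹ * L g) * k.1 * (L g⁻¹ * L g) := by simp [mul_assoc]
      _ = k.1 := by rw [L_inv_mul]; simp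
  have hmap : ∀ (g : GL (Fin n) F) (hg : g ∈ G),
      W.map (L g) = T (𝔪.comap (cj K g⁻¹ (hGK g⁻¹ (G.inv_mem hg)))) := by
    intro g hg
    ext v
    rw [hT, Submodule.mem_map]
    constructor
    · rintro ⟨w, hw, rfl⟩ k hk
      have h1 := (hT 𝔪 w).1 hw _ (Ideal.mem_comap.1 hk)
      have h2 : L g⁻¹ (k.1 (L g⁻¹⁻¹ w)) = 0 := h1
      rw [inv_inv] at h2
      have h3 := congrArg (L g) h2
      rwa [L_apply_inv, map_zero] at h3
    · intro h
      refine ⟨L g⁻¹ v, ?_, L_apply_inv g v⟩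
      rw [hT]
      intro k hk
      have h1 := h (cj K g (hGK g hg) k) (by rw [Ideal.mem_comap, hcj g hg]; exact hk)
      have h2 : L g (k.1 (L g⁻¹ v)) = 0 := h1
      have h3 := congrArg (L g⁻¹) h2
      rwa [L_inv_apply, map_zero] at h3
  have hmaxg : ∀ (g : GL (Fin n) F) (hg : g ∈ G),
      (𝔪.comap (cj K g⁻¹ (hGK g⁻¹ (G.inv_mem hg)))).IsMaximal := by
    intro g hg
    apply Ideal.comap_isMaximal_of_surjective
    intro k
    exact ⟨_, hcj g hg k⟩
  -- independence of the orbit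
  have hind : iSupIndep (fun U : {U : Submodule F (Fin n → F) // ∃ g ∈ G, U = W.map (L g)} => U.1) := by
    have hfin : Finite {U : Submodule F (Fin n → F) // ∃ g ∈ G, U = W.map (L g)} := by
      have : Finite (Submodule F (Fin n → F)) :=
        Finite.of_injective (fun U => (U : Set (Fin n → F))) SetLike.coe_injective
      exact Subtype.finite
    let _ : Fintype {U : Submodule F (Fin n → F) // ∃ g ∈ G, U = W.map (L g)} := Fintype.ofFinite _
    have hch : ∀ U : {U : Submodule F (Fin n → F) // ∃ g ∈ G, U = W.map (L g)},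
        ∃ I : Ideal K, I.IsMaximal ∧ U.1 = T I := by
      rintro ⟨U, g, hg, rfl⟩
      exact ⟨_, hmaxg g hg, hmap g hg⟩
    choose p hpmax hpT using hch
    have hpinj : ∀ U U', U ≠ U' → p U ≠ p U' := by
      intro U U' hne h
      apply hne
      apply Subtype.ext
      rw [hpT, hpT, h]
    have h1 := Submodule.supIndep_torsionBySet_ideal (R := K) (M := Fin n → F) (S := Finset.univ) (p := p)
      (fun U _ U' _ hne => (hpmax U).coprime_of_ne (hpmax U') (hpinj U U' hne))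
    have h2 := h1.iSupIndep_of_univ
    intro U
    have h3 := h2 U
    rw [Submodule.disjoint_def] at h3 ⊢
    intro x hx hx'
    apply h3 x
    · change x ∈ U.1 at hx
      rw [hpT] at hx
      exact hx
    · have : (⨆ j, ⨆ (_ : j ≠ U), j.1) =
          (⨆ j, ⨆ (_ : j ≠ U), Submodule.torsionBySet K (Fin n → F) (p j : Set K)).restrictScalars F := by
        simp only [Submodule.restrictScalars_iSup]
        apply iSup_congr
        intro j
        apply iSup_congr
        intro _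
        exact hpT j
      rw [this] at hx'
      exact hx'
  have hWtop : W = ⊤ := top_of_indep_orbit G hirr hprim W hWne hind
  have hknot : (⟨k, hk⟩ : K) ∉ 𝔪 := by
    intro hmem
    apply hk0
    apply LinearMap.ext
    intro v
    have : v ∈ W := by rw [hWtop]; trivial
    exact (hT 𝔪 v).1 this _ hmem
  obtain ⟨y, i, hi, hyi⟩ := hmax.exists_inv hknot
  intro v w hvw
  have key : ∀ u : Fin n → F, y.1 (k u) = u := by
    intro u
    have h1 : (y * ⟨k, hk⟩ + i : K).1 u = u := by rw [hyi]; rfl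
    have h2 : i.1 u = 0 := (hT 𝔪 u).1 (by rw [← hWdef, hWtop]; trivial) i hi
    have h3 : (y * ⟨k, hk⟩ + i : K).1 u = y.1 (k u) + i.1 u := rfl
    rw [h3, h2, add_zero] at h1
    exact h1
  rw [← key v, ← key w, hvw]


theorem fixS_eq_bot_of_abelian_normal [Finite F] (G A : Subgroup (GL (Fin n) F))
    (hirr : Cfsg.Geo.ActsIrreducibly (Cfsg.Geo.matrixSet G))
    (hprim : ∀ (m t : ℕ) (D : Fin t → Submodule F (Fin n → F)), 2 ≤ t → Cfsg.Geo.IsMDecomposition m D →
      ¬ G ≤ Cfsg.Geo.decompositionStabilizer D)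
    (hnorm : ∀ g ∈ G, ∀ a ∈ A, g * a * g⁻¹ ∈ A)
    (hcomm : ∀ a ∈ A, ∀ b ∈ A, a * b = b * a) (a : GL (Fin n) F) (ha : a ∈ A) (ha1 : a ≠ 1) :
    fixS a = ⊥ := by
  classical
  let s : Set (Module.End F (Fin n → F)) := (fun a : GL (Fin n) F => L a) '' (A : Set (GL (Fin n) F))
  have hs : ∀ x ∈ s, ∀ y ∈ s, x * y = y * x := by
    rintro _ ⟨x, hx, rfl⟩ _ ⟨y, hy, rfl⟩
    show L x ∘ₗ L y = L y ∘ₗ L x
    rw [← L_mul, ← L_mul, hcomm x hx y hy]
  let K := Algebra.adjoin F s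
  have hK : ∀ x ∈ K, ∀ y ∈ K, x * y = y * x := by
    intro x hx y hy
    have := (Algebra.adjoinCommRingOfComm F hs).mul_comm ⟨x, hx⟩ ⟨y, hy⟩
    exact congrArg Subtype.val this
  have hGK : ∀ g ∈ G, ∀ k ∈ K, L g * k * L g⁻¹ ∈ K := by
    intro g hg k hk
    induction hk using Algebra.adjoin_induction with
    | mem x hx =>
      obtain ⟨b, hb, rfl⟩ := hx
      apply Algebra.subset_adjoin
      refine ⟨g * b * g⁻¹, hnorm g hg b hb, ?_⟩
      show L (g * b * g⁻¹) = L g ∘ₗ L b ∘ₗ L g⁻¹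
      rw [L_mul, L_mul]
      rfl
    | algebraMap r =>
      have : L g * algebraMap F _ r * L g⁻¹ = algebraMap F _ r := by
        rw [← Algebra.commutes, mul_assoc, L_mul_inv, mul_one]
      rw [this]
      exact Subalgebra.algebraMap_mem _ r
    | add x y _ _ hx hy =>
      rw [mul_add, add_mul]
      exact Subalgebra.add_mem _ hx hy
    | mul x y _ _ hx hy =>
      have : L g * (x * y) * L g⁻¹ = (L g * x * L g⁻¹) * (L g * y * L g⁻¹) := by
        calc L g * (x * y) * L g⁻¹ = L g * x * 1 * y * L g⁻¹ := by simp [mul_assoc]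
          _ = _ := by rw [← L_inv_mul g]; simp [mul_assoc]
      rw [this]
      exact Subalgebra.mul_mem _ hx hy
  have hkK : L a - 1 ∈ K :=
    Subalgebra.sub_mem _ (Algebra.subset_adjoin ⟨a, ha, rfl⟩) (Subalgebra.one_mem _)
  have hk0 : L a - 1 ≠ 0 := by
    intro h
    apply ha1
    apply L_inj
    rw [L_one]
    exact sub_eq_zero.1 h
  have hinj := injective_of_mem_comm_subalgebra G hirr hprim K hK hGK _ hkK hk0
  rw [eq_bot_iff]
  intro v hv
  rw [mem_fixS] at hv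
  have : (L a - 1) v = (L a - 1) 0 := by
    rw [map_zero]
    show L a v - v = 0
    rw [hv, sub_self]
  exact (Submodule.mem_bot F).2 (hinj this)

theorem prim_solvable_fixS_bound [Finite F] (G : Subgroup (GL (Fin n) F)) (hsol : IsSolvable G)
    (hirr : Cfsg.Geo.ActsIrreducibly (Cfsg.Geo.matrixSet G))
    (hprim : ∀ (m t : ℕ) (D : Fin t → Submodule F (Fin n → F)), 2 ≤ t → Cfsg.Geo.IsMDecomposition m D →
      ¬ G ≤ Cfsg.Geo.decompositionStabilizer D)
    (g : GL (Fin n) F) (hg : g ∈ G) (hg1 : g ≠ 1) :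
    4 * finrank F (fixS g) ≤ 3 * n := by
  classical
  have hfinGL : Finite (GL (Fin n) F) := inferInstance
  obtain ⟨A, B, hAn, hBn, hAc, hBB, hCB⟩ := exists_AB (G := ↥G) hsol
  have fpf : ∀ a : ↥G, a ∈ A → a ≠ 1 → finrank F (fixS (a : GL (Fin n) F)) = 0 := by
    intro a ha ha1
    have := fixS_eq_bot_of_abelian_normal G (A.map G.subtype) hirr hprim ?_ ?_ (a : GL (Fin n) F)
      ⟨a, ha, rfl⟩ (fun h => ha1 (Subtype.ext h))
    · rw [this]; simp
    · rintro x hx _ ⟨b, hb, rfl⟩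
      exact ⟨⟨x, hx⟩ * b * ⟨x, hx⟩⁻¹, hAn.conj_mem b hb ⟨x, hx⟩, rfl⟩
    · rintro _ ⟨x, hx, rfl⟩ _ ⟨y, hy, rfl⟩
      exact congrArg Subtype.val (hAc x hx y hy)
  have step : ∀ γ : ↥G, γ ∉ A → ∃ b ∈ B, γ * b * γ⁻¹ * b⁻¹ ≠ 1 := by
    intro γ hγ
    by_contra hcon
    push_neg at hcon
    apply hγ
    apply hCB
    intro b hb
    have := hcon b hb
    calc γ * b = (γ * b * γ⁻¹ * b⁻¹) * (b * γ) := by group
      _ = b * γ := by rw [this, one_mul]
  set γ : ↥G := ⟨g, hg⟩ with hγ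
  have hγ1 : γ ≠ 1 := fun h => hg1 (congrArg Subtype.val h)
  by_cases hγA : γ ∈ A
  · have := fpf γ hγA hγ1
    have h' : finrank F (fixS g) = 0 := this
    omega
  obtain ⟨b, hb, hb1⟩ := step γ hγA
  have e1 : 2 * finrank F (fixS g) ≤ n + finrank F (fixS ((γ * b * γ⁻¹ * b⁻¹ : ↥G) : GL (Fin n) F)) :=
    fixS_commutator g (b : GL (Fin n) F)
  set h : ↥G := γ * b * γ⁻¹ * b⁻¹ with hh
  have hhB : h ∈ B := B.mul_mem (hBn.conj_mem b hb γ) (B.inv_mem hb)
  by_cases hhA : h ∈ A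
  · have := fpf h hhA hb1
    omega
  obtain ⟨b', hb', hb'1⟩ := step h hhA
  have e2 : 2 * finrank F (fixS (h : GL (Fin n) F)) ≤
      n + finrank F (fixS ((h * b' * h⁻¹ * b'⁻¹ : ↥G) : GL (Fin n) F)) :=
    fixS_commutator (h : GL (Fin n) F) (b' : GL (Fin n) F)
  have := fpf _ (hBB h hhB b' hb') hb'1
  omega

end Lin2
end Cfsg.Agent.Lib.Helper97
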